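import Cfsg.Agent.Lib.Helper28.Embed

/-!
# Covering presentations (helper28)

Let `G` be generated by elements `γ i` satisfying relators `rels`.  In a central extension `σ : Γ → G`
the relators become central, and the lifts of the generators can be normalised as soon as the exponent
sums of the relators generate `ℤ ^ n`.  All the words which then hold in `Γ` are listed by `Cov.word`;
Todd–Coxeter certificates (`Link`) on these words bound the order of `Γ`.

Letters: `2 i`, `2 i + 1` for the generator `i < n` and its inverse; `2 n + 2 j`, `2 n + 2 j + 1` for the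
value of the relator `j` and its inverse.
-/

set_option autoImplicit false

namespace Cfsg.Agent.Lib.Helper28

/-- the inverse letter -/
def oinv (l : ℕ) : ℕ := if l % 2 = 0 then l + 1 else l - 1

/-- the inverse word -/
def invW (w : List ℕ) : List ℕ := (w.map oinv).reverse

/-- values of the generator letters -/
def bval {Γ : Type*} [Group Γ] (g : ℕ → Γ) (l : ℕ) : Γ := if l % 2 = 0 then g (l / 2) else (g (l / 2))⁻¹

section Basic

variable {Γ : Type*} [Group Γ]

theorem bval_oinv (g : ℕ → Γ) (l : ℕ) : bval g (oinv l) = (bval g l)⁻¹ := by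
  unfold bval oinv
  by_cases h : l % 2 = 0
  · rw [if_pos h, if_pos h, if_neg (by omega)]
    congr 2
    omega
  · rw [if_neg h, if_neg h, if_pos (by omega), inv_inv]
    congr 1
    omega

theorem evalW_invW {v : ℕ → Γ} (hv : ∀ l, v (oinv l) = (v l)⁻¹) (w : List ℕ) :
    evalW v (invW w) = (evalW v w)⁻¹ := by
  induction w with
  | nil => simp [invW]
  | cons x w ih =>
    have e : invW (x :: w) = invW w ++ [oinv x] := by simp [invW]
    rw [e, evalW_append, ih, evalW_cons, evalW_cons, evalW_nil, mul_one, hv, mul_inv_rev]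

theorem map_bval {Γ' : Type*} [Group Γ'] (ψ : Γ →* Γ') (g : ℕ → Γ) (l : ℕ) :
    ψ (bval g l) = bval (fun i => ψ (g i)) l := by
  unfold bval
  split_ifs
  · rfl
  · rw [map_inv]

theorem map_evalW_bval {Γ' : Type*} [Group Γ'] (ψ : Γ →* Γ') (g : ℕ → Γ) (w : List ℕ) :
    ψ (evalW (bval g) w) = evalW (bval (fun i => ψ (g i))) w := by
  rw [map_evalW]
  exact Prob.evalW_congr (fun y _ => map_bval ψ g y)

theorem evalW_eq_one_of_forall {v : ℕ → Γ} {w : List ℕ} (h : ∀ y ∈ w, v y = 1) : evalW v w = 1 := by
  induction w with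
  | nil => rfl
  | cons x w ih =>
    rw [evalW_cons, h x List.mem_cons_self, one_mul, ih (fun y hy => h y (List.mem_cons_of_mem _ hy))]

/-- changing the generators by central elements -/
theorem evalW_bval_mul (g c : ℕ → Γ) (hc : ∀ i, c i ∈ Subgroup.center Γ) (w : List ℕ) :
    evalW (bval (fun i => g i * c i)) w = evalW (bval g) w * evalW (bval c) w := by
  have hb : ∀ l, bval c l ∈ Subgroup.center Γ := by
    intro l
    unfold bval
    split_ifs
    · exact hc _
    · exact Subgroup.inv_mem _ (hc _)
  have h1 : ∀ l, bval (fun i => g i * c i) l = bval g l * bval c l := by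
    intro l
    unfold bval
    split_ifs
    · rfl
    · rw [mul_inv_rev]
      exact (Subgroup.mem_center_iff.mp (Subgroup.inv_mem _ (hc _)) _).symm
  induction w with
  | nil => simp
  | cons x w ih =>
    rw [evalW_cons, evalW_cons, evalW_cons, ih, h1]
    have := Subgroup.mem_center_iff.mp (hb x) (evalW (bval g) w)
    calc bval g x * bval c x * (evalW (bval g) w * evalW (bval c) w)
        = bval g x * (bval c x * evalW (bval g) w) * evalW (bval c) w := by group
      _ = bval g x * (evalW (bval g) w * bval c x) * evalW (bval c) w := by rw [this]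
      _ = _ := by group

end Basic

/-- exponent sum of the generator `i` -/
def esum (i : ℕ) (w : List ℕ) : ℤ := (w.count (2 * i) : ℤ) - (w.count (2 * i + 1) : ℤ)

theorem evalW_bval_comm {A : Type*} [CommGroup A] (c : ℕ → A) (n : ℕ) (w : List ℕ)
    (hw : ∀ y ∈ w, y < 2 * n) : evalW (bval c) w = ∏ i ∈ Finset.range n, c i ^ esum i w := by
  induction w with
  | nil => simp [esum]
  | cons l w ih =>
    rw [evalW_cons, ih (fun y hy => hw y (List.mem_cons_of_mem _ hy))]
    have hl : l / 2 < n := by have := hw l List.mem_cons_self; omega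
    have key : ∀ i, esum i (l :: w) = (if i = l / 2 then (if l % 2 = 0 then 1 else -1) else 0) + esum i w := by
      intro i
      unfold esum
      rw [List.count_cons, List.count_cons]
      by_cases hi : i = l / 2
      · rw [if_pos hi]
        by_cases hp : l % 2 = 0
        · rw [if_pos hp]
          have e1 : (l == 2 * i) = true := by simp; omega
          have e2 : (l == 2 * i + 1) = false := by simp; omega
          rw [e1, e2]; simp; ring
        · rw [if_neg hp]
          have e1 : (l == 2 * i) = false := by simp; omega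
          have e2 : (l == 2 * i + 1) = true := by simp; omega
          rw [e1, e2]; simp; ring
      · rw [if_neg hi]
        have e1 : (l == 2 * i) = false := by simp; omega
        have e2 : (l == 2 * i + 1) = false := by simp; omega
        rw [e1, e2]; simp
    have : ∏ i ∈ Finset.range n, c i ^ esum i (l :: w) =
        (∏ i ∈ Finset.range n, c i ^ (if i = l / 2 then (if l % 2 = 0 then (1 : ℤ) else -1) else 0)) *
          ∏ i ∈ Finset.range n, c i ^ esum i w := by
      rw [← Finset.prod_mul_distrib]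
      exact Finset.prod_congr rfl (fun i _ => by rw [key, zpow_add])
    rw [this]
    congr 1
    rw [Finset.prod_eq_single (l / 2)]
    · rw [if_pos rfl]
      unfold bval
      split_ifs <;> simp
    · intro b _ hb
      rw [if_neg hb, zpow_zero]
    · intro h
      exact absurd (Finset.mem_range.mpr hl) h

/-- the data of a covering presentation -/
structure Cov where
  /-- number of generators -/
  n : ℕ
  /-- relators, words in the letters `< 2 n` -/
  rels : List (List ℕ)
  /-- for each generator a word in the letters of the relators -/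
  norm : List (List ℕ)

namespace Cov

variable (C : Cov)

/-- number of letters -/
def K : ℕ := 2 * C.n + 2 * C.rels.length

def rel (i : ℕ) : List ℕ := C.rels.getD i []

/-- expansion of the letters -/
def ex (l : ℕ) : List ℕ :=
  if l < 2 * C.n then [l]
  else if (l - 2 * C.n) % 2 = 0 then C.rel ((l - 2 * C.n) / 2) else invW (C.rel ((l - 2 * C.n) / 2))

def nrm (x : ℕ) : List ℕ := C.norm.getD x []

/-- the words which hold in a normalised central extension -/
def word : ℕ × ℕ × ℕ → List ℕ
  | (0, i, _) => C.rel i ++ [2 * C.n + 2 * i + 1]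
  | (1, i, y) => [2 * C.n + 2 * i, y, 2 * C.n + 2 * i + 1, oinv y]
  | (2, i, y) => C.rel i ++ [y] ++ invW (C.rel i) ++ [oinv y]
  | (3, x, _) => C.nrm x
  | (_, x, _) => (C.nrm x).flatMap C.ex

/-- the conditions on the data -/
structure OK : Prop where
  relsK : ∀ r ∈ C.rels, ∀ y ∈ r, y < 2 * C.n
  normK : ∀ w ∈ C.norm, ∀ y ∈ w, 2 * C.n ≤ y
  normLen : C.norm.length = C.n
  esum : ∀ x < C.n, ∀ i < C.n, esum i ((C.nrm x).flatMap C.ex) = if i = x then 1 else 0

variable {C} {Γ : Type*} [Group Γ]

/-- values of all letters -/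
def val (C : Cov) (g : ℕ → Γ) (l : ℕ) : Γ := evalW (bval g) (C.ex l)

theorem relK (h : C.OK) (i : ℕ) : ∀ y ∈ C.rel i, y < 2 * C.n := by
  unfold rel
  by_cases hi : i < C.rels.length
  · rw [List.getD_eq_getElem _ _ hi]
    exact h.relsK _ (List.getElem_mem _)
  · rw [List.getD_eq_default _ _ (by omega)]
    simp

theorem nrmK (h : C.OK) (x : ℕ) : ∀ y ∈ C.nrm x, 2 * C.n ≤ y := by
  unfold nrm
  by_cases hi : x < C.norm.length
  · rw [List.getD_eq_getElem _ _ hi]
    exact h.normK _ (List.getElem_mem _)
  · rw [List.getD_eq_default _ _ (by omega)]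
    simp

theorem oinv_lt {l n : ℕ} (h : l < 2 * n) : oinv l < 2 * n := by
  unfold oinv; split_ifs <;> omega

theorem invW_lt {w : List ℕ} {n : ℕ} (h : ∀ y ∈ w, y < 2 * n) : ∀ y ∈ invW w, y < 2 * n := by
  intro y hy
  unfold invW at hy
  rw [List.mem_reverse, List.mem_map] at hy
  obtain ⟨a, ha, rfl⟩ := hy
  exact oinv_lt (h a ha)

theorem exK (h : C.OK) (l : ℕ) : ∀ y ∈ C.ex l, y < 2 * C.n := by
  unfold ex
  split_ifs with h1 h2
  · intro y hy
    rw [List.mem_singleton] at hy
    omega
  · exact relK h _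
  · exact invW_lt (relK h _)

theorem val_lt (g : ℕ → Γ) {l : ℕ} (hl : l < 2 * C.n) : C.val g l = bval g l := by
  unfold val ex
  rw [if_pos hl, evalW_cons, evalW_nil, mul_one]

theorem val_pos (g : ℕ → Γ) (i : ℕ) : C.val g (2 * C.n + 2 * i) = evalW (bval g) (C.rel i) := by
  unfold val ex
  rw [if_neg (by omega), if_pos (by omega)]
  congr 2
  omega

theorem val_neg (g : ℕ → Γ) (i : ℕ) : C.val g (2 * C.n + 2 * i + 1) = (evalW (bval g) (C.rel i))⁻¹ := by
  unfold val ex
  rw [if_neg (by omega), if_neg (by omega), evalW_invW (bval_oinv g)]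
  congr 3
  omega

theorem val_oinv (g : ℕ → Γ) (l : ℕ) : C.val g (oinv l) = (C.val g l)⁻¹ := by
  by_cases hl : l < 2 * C.n
  · rw [val_lt g hl, val_lt g (oinv_lt hl), bval_oinv]
  · by_cases hp : l % 2 = 0
    · obtain ⟨i, rfl⟩ : ∃ i, l = 2 * C.n + 2 * i := ⟨(l - 2 * C.n) / 2, by omega⟩
      have e : oinv (2 * C.n + 2 * i) = 2 * C.n + 2 * i + 1 := by unfold oinv; rw [if_pos hp]
      rw [e, val_pos, val_neg]
    · obtain ⟨i, rfl⟩ : ∃ i, l = 2 * C.n + 2 * i + 1 := ⟨(l - 2 * C.n) / 2, by omega⟩
      have e : oinv (2 * C.n + 2 * i + 1) = 2 * C.n + 2 * i := by unfold oinv; rw [if_neg hp]; rfl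
      rw [e, val_pos, val_neg, inv_inv]

theorem evalW_val (g : ℕ → Γ) (w : List ℕ) : evalW (C.val g) w = evalW (bval g) (w.flatMap C.ex) :=
  evalW_flatMap (bval g) C.ex w

theorem evalW_val_lt (g : ℕ → Γ) {w : List ℕ} (hw : ∀ y ∈ w, y < 2 * C.n) :
    evalW (C.val g) w = evalW (bval g) w :=
  Prob.evalW_congr (fun y hy => val_lt g (hw y hy))

/-- all the words hold -/
theorem evalW_word (h : C.OK) (g : ℕ → Γ) (h1 : ∀ i, evalW (bval g) (C.rel i) ∈ Subgroup.center Γ)
    (h3 : ∀ x, evalW (bval g) ((C.nrm x).flatMap C.ex) = 1) (t : ℕ × ℕ × ℕ) :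
    evalW (C.val g) (C.word t) = 1 := by
  obtain ⟨ty, i, y⟩ := t
  match ty with
  | 0 =>
    show evalW (C.val g) (C.rel i ++ [2 * C.n + 2 * i + 1]) = 1
    rw [evalW_append, evalW_val_lt g (relK h i), evalW_cons, evalW_nil, mul_one, val_neg, mul_inv_cancel]
  | 1 =>
    show evalW (C.val g) [2 * C.n + 2 * i, y, 2 * C.n + 2 * i + 1, oinv y] = 1
    rw [evalW_cons, evalW_cons, evalW_cons, evalW_cons, evalW_nil, mul_one, val_pos, val_neg, val_oinv]
    have := Subgroup.mem_center_iff.mp (h1 i) (C.val g y)
    rw [← mul_assoc, ← this]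
    group
  | 2 =>
    show evalW (C.val g) (C.rel i ++ [y] ++ invW (C.rel i) ++ [oinv y]) = 1
    rw [evalW_append, evalW_append, evalW_append, evalW_invW (val_oinv g), evalW_val_lt g (relK h i),
      evalW_cons, evalW_nil, mul_one, evalW_cons, evalW_nil, mul_one, val_oinv]
    have := Subgroup.mem_center_iff.mp (h1 i) (C.val g y)
    rw [← this]
    group
  | 3 =>
    show evalW (C.val g) (C.nrm i) = 1
    rw [evalW_val]; exact h3 i
  | (k + 4) =>
    show evalW (C.val g) ((C.nrm i).flatMap C.ex) = 1
    rw [evalW_val_lt g]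
    · exact h3 i
    · intro z hz
      rw [List.mem_flatMap] at hz
      obtain ⟨a, _, ha⟩ := hz
      exact exK h a z ha

/-- **normalised lifts** in a central extension -/
theorem exists_lift (h : C.OK) {G : Type*} [Group G] (σ : Γ →* G) (hs : Function.Surjective σ)
    (hc : σ.ker ≤ Subgroup.center Γ) (γ : ℕ → G) (hγ : ∀ r ∈ C.rels, evalW (bval γ) r = 1) :
    ∃ g : ℕ → Γ, (∀ i, σ (g i) = γ i) ∧ ∀ t, evalW (C.val g) (C.word t) = 1 := by
  classical
  choose g0 hg0 using fun i => hs (γ i)
  have hrel : ∀ i, evalW (bval γ) (C.rel i) = 1 := by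
    intro i
    unfold rel
    by_cases hi : i < C.rels.length
    · rw [List.getD_eq_getElem _ _ hi]
      exact hγ _ (List.getElem_mem _)
    · rw [List.getD_eq_default _ _ (by omega)]
      rfl
  have hN : ∀ x, evalW (bval γ) ((C.nrm x).flatMap C.ex) = 1 := by
    intro x
    rw [← evalW_flatMap]
    apply evalW_eq_one_of_forall
    intro y hy
    have hy2 := nrmK h x y hy
    unfold ex
    rw [if_neg (by omega)]
    split_ifs
    · exact hrel _
    · rw [evalW_invW (bval_oinv γ), hrel, inv_one]
  have hker : ∀ (g : ℕ → Γ), (∀ i, σ (g i) = γ i) → ∀ w, evalW (bval γ) w = 1 →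
      evalW (bval g) w ∈ Subgroup.center Γ := by
    intro g hg w hw
    apply hc
    rw [MonoidHom.mem_ker, map_evalW_bval]
    have : (fun i => σ (g i)) = γ := funext hg
    rw [this, hw]
  let κ : ℕ → Γ := fun x => evalW (bval g0) ((C.nrm x).flatMap C.ex)
  have hκ : ∀ x, κ x ∈ Subgroup.center Γ := fun x => hker g0 hg0 _ (hN x)
  have hκσ : ∀ x, σ (κ x) = 1 := by
    intro x
    show σ (evalW (bval g0) _) = 1
    rw [map_evalW_bval]
    have : (fun i => σ (g0 i)) = γ := funext hg0
    rw [this, hN]
  let c : ℕ → Γ := fun i => (κ i)⁻¹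
  have hcc : ∀ i, c i ∈ Subgroup.center Γ := fun i => Subgroup.inv_mem _ (hκ i)
  let g : ℕ → Γ := fun i => g0 i * c i
  have hg : ∀ i, σ (g i) = γ i := by
    intro i
    show σ (g0 i * (κ i)⁻¹) = γ i
    rw [map_mul, map_inv, hκσ, inv_one, mul_one, hg0]
  refine ⟨g, hg, evalW_word h g (fun i => hker g hg _ (hrel i)) ?_⟩
  intro x
  by_cases hx : x < C.n
  · have hlt : ∀ y ∈ (C.nrm x).flatMap C.ex, y < 2 * C.n := by
      intro z hz
      rw [List.mem_flatMap] at hz
      obtain ⟨a, _, ha⟩ := hz
      exact exK h a z ha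
    show evalW (bval (fun i => g0 i * c i)) _ = 1
    rw [evalW_bval_mul g0 c hcc]
    letI : CommGroup (Subgroup.center Γ) :=
      { (inferInstance : Group (Subgroup.center Γ)) with
        mul_comm := fun a b => Subtype.ext (Subgroup.mem_center_iff.mp b.2 a.1) }
    let c' : ℕ → Subgroup.center Γ := fun i => ⟨c i, hcc i⟩
    have e1 : evalW (bval c) ((C.nrm x).flatMap C.ex) =
        ((evalW (bval c') ((C.nrm x).flatMap C.ex) : Subgroup.center Γ) : Γ) := by
      have := map_evalW_bval (Subgroup.center Γ).subtype c' ((C.nrm x).flatMap C.ex)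
      exact this.symm
    rw [e1, evalW_bval_comm c' C.n _ hlt, Finset.prod_eq_single x]
    · rw [h.esum x hx x hx, if_pos rfl, zpow_one]
      show κ x * (κ x)⁻¹ = 1
      exact mul_inv_cancel _
    · intro b hb hbx
      rw [h.esum x hx b (Finset.mem_range.mp hb), if_neg hbx, zpow_zero]
    · intro hcon
      exact absurd (Finset.mem_range.mpr hx) hcon
  · have e : C.nrm x = [] := by
      unfold nrm
      rw [List.getD_eq_default _ _ (by rw [h.normLen]; omega)]
    rw [e]
    rfl

end Cov

end Cfsg.Agent.Lib.Helper28
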