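import Cfsg.Agent.Lib.Helper28.Mult.Stem

/-!
# Existence of a stem extension with cyclic kernel, from a presentation and a model (helper28)
-/

set_option autoImplicit false

namespace Cfsg.Agent.Lib.Helper28

/-- free generators -/
def fgen (k : ℕ) (i : ℕ) : FreeGroup (Fin k) := if h : i < k then FreeGroup.of ⟨i, h⟩ else 1

/-- relators given by words -/
def cgRels (k : ℕ) (W : List (List ℕ)) : Set (FreeGroup (Fin k)) :=
  {x | ∃ w ∈ W, x = evalW (bval (fgen k)) w}

/-- the group presented by words -/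
abbrev CG (k : ℕ) (W : List (List ℕ)) : Type := PresentedGroup (cgRels k W)

namespace CG

variable {k : ℕ} {W : List (List ℕ)}

/-- the generators -/
def gen (k : ℕ) (W : List (List ℕ)) (i : ℕ) : CG k W := PresentedGroup.mk (cgRels k W) (fgen k i)

theorem rel {w : List ℕ} (hw : w ∈ W) : evalW (bval (gen k W)) w = 1 := by
  have h := map_evalW_bval (PresentedGroup.mk (cgRels k W)) (fgen k) w
  have e : gen k W = fun i => PresentedGroup.mk (cgRels k W) (fgen k i) := rfl
  rw [e, ← h]
  exact PresentedGroup.one_of_mem ⟨w, hw, rfl⟩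

theorem exists_lift {Δ : Type*} [Group Δ] (hWk : ∀ w ∈ W, ∀ y ∈ w, y < 2 * k) (g : ℕ → Δ)
    (h : ∀ w ∈ W, evalW (bval g) w = 1) : ∃ f : CG k W →* Δ, ∀ i < k, f (gen k W i) = g i := by
  let f0 : Fin k → Δ := fun i => g i
  have hl : ∀ i < k, FreeGroup.lift f0 (fgen k i) = g i := by
    intro i hi
    unfold fgen
    rw [dif_pos hi]
    exact FreeGroup.lift_apply_of
  have hs : ∀ r ∈ cgRels k W, FreeGroup.lift f0 r = 1 := by
    rintro _ ⟨w, hw, rfl⟩
    rw [map_evalW_bval, ← h w hw]
    apply Prob.evalW_congr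
    intro y hy
    have hy' := hWk w hw y hy
    unfold bval
    beta_reduce
    rw [hl (y / 2) (by omega)]
  exact ⟨PresentedGroup.toGroup hs, fun i hi => hl i hi⟩

theorem closure_gen : Subgroup.closure (gen k W '' {i | i < k}) = ⊤ := by
  have h := PresentedGroup.closure_range_of (cgRels k W)
  rw [eq_top_iff, ← h]
  apply Subgroup.closure_mono
  rintro _ ⟨a, rfl⟩
  refine ⟨a.1, a.2, ?_⟩
  unfold gen fgen
  rw [dif_pos a.2]
  rfl

end CG

theorem evalW_replicate {Γ : Type*} [Group Γ] (v : ℕ → Γ) (m l : ℕ) :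
    evalW v (List.replicate m l) = v l ^ m := by
  induction m with
  | zero => simp
  | succ m ih => rw [List.replicate_succ, evalW_cons, ih, pow_succ']

theorem evalW_flatten_one {Γ : Type*} [Group Γ] (v : ℕ → Γ) (Vs : List (List ℕ))
    (h : ∀ w ∈ Vs, evalW v w = 1) : evalW v Vs.flatten = 1 := by
  induction Vs with
  | nil => rfl
  | cons w Vs ih =>
    rw [List.flatten_cons, evalW_append, h w List.mem_cons_self,
      ih (fun u hu => h u (List.mem_cons_of_mem _ hu)), one_mul]

open CG in
/-- a stem extension with cyclic kernel of order `m` -/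
theorem CG.stem {G : Type} [Group G] [Finite G] {n m : ℕ} {W : List (List ℕ)} (hm : 0 < m)
    (hWk : ∀ w ∈ W, ∀ y ∈ w, y < 2 * (n + 1))
    (hcomm : ∀ x < n, [2 * n, 2 * x, 2 * n + 1, 2 * x + 1] ∈ W)
    (hpow : List.replicate m (2 * n) ∈ W)
    (γ : ℕ → G) (hγn : γ n = 1) (hγ : ∀ w ∈ W, evalW (bval γ) w = 1)
    (hsurj : Subgroup.closure (γ '' {i | i < n}) = ⊤)
    (hψ : ∀ (N : Subgroup (CG (n + 1) W)) [N.Normal], gen (n + 1) W n ∈ N →
      ∃ ψ : G →* CG (n + 1) W ⧸ N, ∀ i < n, ψ (γ i) = QuotientGroup.mk' N (gen (n + 1) W i))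
    {Δ : Type*} [Group Δ] (δ : ℕ → Δ) (hδ : ∀ w ∈ W, evalW (bval δ) w = 1)
    (hord : ∀ d, d < m → 0 < d → δ n ^ d ≠ 1)
    (Vs : List (List ℕ)) (hVs : ∀ v ∈ Vs, v ∈ W ∨ invW v ∈ W)
    (hVk : ∀ y ∈ Vs.flatten, y < 2 * (n + 1))
    (hV0 : ∀ i < n, esum i Vs.flatten = 0) (hV1 : esum n Vs.flatten = 1) :
    ∃ σ : CG (n + 1) W →* G, Finite (CG (n + 1) W) ∧ Cfsg.IsStemExtension σ ∧
      Nonempty (σ.ker ≃* Multiplicative (ZMod m)) := by
  classical
  obtain ⟨σ, hσ⟩ := exists_lift hWk γ hγ
  obtain ⟨f, hf⟩ := exists_lift hWk δ hδ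
  set z : CG (n + 1) W := gen (n + 1) W n with hz
  -- `z` is central
  have hzc : z ∈ Subgroup.center (CG (n + 1) W) := by
    have h1 : Subgroup.closure (gen (n + 1) W '' {i | i < n + 1}) ≤ Subgroup.centralizer {z} := by
      rw [Subgroup.closure_le]
      rintro _ ⟨i, hi, rfl⟩
      have hi' : i < n + 1 := hi
      rw [SetLike.mem_coe, Subgroup.mem_centralizer_iff]
      intro y hy
      rw [Set.mem_singleton_iff] at hy
      subst hy
      rcases Nat.lt_succ_iff_lt_or_eq.mp hi' with h | h
      · have h2 := rel (k := n + 1) (hcomm i h)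
        simp only [evalW_cons, evalW_nil, mul_one] at h2
        have e1 : bval (gen (n + 1) W) (2 * n) = z := by unfold bval; rw [if_pos (by omega)]; congr 1; omega
        have e2 : bval (gen (n + 1) W) (2 * n + 1) = z⁻¹ := by
          unfold bval; rw [if_neg (by omega)]; congr 2; omega
        have e3 : bval (gen (n + 1) W) (2 * i) = gen (n + 1) W i := by
          unfold bval; rw [if_pos (by omega)]; congr 1; omega
        have e4 : bval (gen (n + 1) W) (2 * i + 1) = (gen (n + 1) W i)⁻¹ := by
          unfold bval; rw [if_neg (by omega)]; congr 2; omega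
        rw [e1, e2, e3, e4] at h2
        have h3 : z * gen (n + 1) W i = gen (n + 1) W i * z := by
          have := congrArg (fun t => t * gen (n + 1) W i * z) h2
          simpa [mul_assoc] using this
        exact h3
      · subst h; rfl
    rw [closure_gen] at h1
    rw [Subgroup.mem_center_iff]
    intro g
    have := Subgroup.mem_centralizer_iff.mp (h1 (Subgroup.mem_top g)) z rfl
    exact this.symm
  let N : Subgroup (CG (n + 1) W) := Subgroup.zpowers z
  have hNc : N ≤ Subgroup.center (CG (n + 1) W) := by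
    rw [Subgroup.zpowers_le]; exact hzc
  have hNn : N.Normal :=
    { conj_mem := by
        intro a ha g
        have h1 := Subgroup.mem_center_iff.mp (hNc ha) g
        rw [h1, mul_inv_cancel_right]
        exact ha }
  have hσz : σ z = 1 := by rw [hσ n (Nat.lt_succ_self n), hγn]
  -- the kernel
  have hker : σ.ker = N := by
    apply le_antisymm
    · obtain ⟨ψ, hψ'⟩ := hψ N (Subgroup.mem_zpowers z)
      have hcomp : ψ.comp σ = QuotientGroup.mk' N := by
        apply MonoidHom.eq_of_eqOn_dense (closure_gen (k := n + 1) (W := W))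
        rintro _ ⟨i, hi, rfl⟩
        have hi' : i < n + 1 := hi
        rw [MonoidHom.comp_apply, hσ i hi']
        rcases Nat.lt_succ_iff_lt_or_eq.mp hi' with h | h
        · exact hψ' i h
        · subst h
          rw [hγn, map_one]
          exact ((QuotientGroup.eq_one_iff _).mpr (Subgroup.mem_zpowers z)).symm
      intro x hx
      have h1 : QuotientGroup.mk' N x = 1 := by
        rw [← hcomp, MonoidHom.comp_apply, MonoidHom.mem_ker.mp hx, map_one]
      exact (QuotientGroup.eq_one_iff _).mp h1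
    · rw [Subgroup.zpowers_le]; exact hσz
  -- surjectivity
  have hsur : Function.Surjective σ := by
    rw [← MonoidHom.range_eq_top, eq_top_iff, ← hsurj, Subgroup.closure_le]
    rintro _ ⟨i, hi, rfl⟩
    exact ⟨gen (n + 1) W i, hσ i (Nat.lt_succ_of_lt hi)⟩
  -- the order of `z`
  have hzm : z ^ m = 1 := by
    have h2 := rel (k := n + 1) hpow
    rw [evalW_replicate] at h2
    have e1 : bval (gen (n + 1) W) (2 * n) = z := by unfold bval; rw [if_pos (by omega)]; congr 1; omega
    rwa [e1] at h2
  have hord' : orderOf z = m := by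
    rw [orderOf_eq_iff hm]
    refine ⟨hzm, fun d hd hd0 hcon => hord d hd hd0 ?_⟩
    rw [← hf n (Nat.lt_succ_self n), ← map_pow, hcon, map_one]
  have hcardN : Nat.card N = m := by rw [Nat.card_zpowers, hord']
  have hfinN : Finite N := Nat.finite_of_card_ne_zero (by omega)
  -- `z` is a product of commutators
  have hzcomm : z ∈ commutator (CG (n + 1) W) := by
    have h1 : evalW (bval (gen (n + 1) W)) Vs.flatten = 1 := by
      apply evalW_flatten_one
      intro v hv
      rcases hVs v hv with h | h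
      · exact rel h
      · have h2 := rel (k := n + 1) h
        rw [evalW_invW (bval_oinv _)] at h2
        exact inv_eq_one.mp h2
    have h2 := congrArg (Abelianization.of (G := CG (n + 1) W)) h1
    rw [map_evalW_bval, map_one, evalW_bval_comm _ (n + 1) _ hVk, Finset.prod_range_succ, hV1, zpow_one,
      Finset.prod_eq_one (fun i hi => by rw [hV0 i (Finset.mem_range.mp hi), zpow_zero]), one_mul] at h2
    rw [← Abelianization.ker_of]
    exact h2
  refine ⟨σ, ?_, ⟨hsur, ?_, ?_⟩, ?_⟩
  · have : Finite σ.ker := by rw [hker]; exact hfinN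
    have : Finite (CG (n + 1) W ⧸ σ.ker) :=
      Finite.of_equiv _ (QuotientGroup.quotientKerEquivOfSurjective σ hsur).symm.toEquiv
    exact Finite.of_subgroup_quotient σ.ker
  · rw [hker]; exact hNc
  · rw [hker, Subgroup.zpowers_le]; exact hzcomm
  · rw [hker]
    have : NeZero m := ⟨by omega⟩
    have : IsCyclic N := Subgroup.isCyclic_zpowers z
    exact ⟨mulEquivOfCyclicCardEq (by rw [hcardN, Nat.card_eq_fintype_card]; simp [ZMod.card])⟩

end Cfsg.Agent.Lib.Helper28
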