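import Cfsg.Agent.Lib.Helper28.Mult.G23Exist
import Cfsg.Agent.Lib.Helper28.Mult.G23MA
import Cfsg.Agent.Lib.Helper28.Mult.G23MB
import Cfsg.Agent.Lib.Helper28.Mult.G23Mat
import Cfsg.Agent.S1059

/-!
# The Schur multiplier of `G₂(3)` is cyclic of order 3 (helper28)
-/

set_option autoImplicit false
set_option maxRecDepth 100000

namespace Cfsg.Agent.Lib.Helper28.Mult.G23X

open Cfsg.Agent.Lib.Helper28 Cfsg.Agent.Lib.Helper28.V2

open Cfsg.Agent.Lib.Helper28.Mult.G23M (C C_ok)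

/-- the two coset enumerations: `3.G₂(3) > SL₃(3) > 1` -/
theorem chain : Chain := by
  intro Γ _ g hW
  obtain ⟨fB, cB⟩ := G23MB.card_le g hW (by rw [Sg_nil]; infer_instance)
  obtain ⟨fA, cA⟩ := G23MA.card_le g hW fB
  rw [Sg_nil] at cB
  have c1 : Nat.card (⊥ : Subgroup Γ) = 1 := by simp
  rw [c1, mul_one] at cB
  exact ⟨fA, le_trans cA (Nat.mul_le_mul_left _ cB)⟩

/-- abstract form -/
theorem main {G : Type} [Group G] [Finite G] (γ : ℕ → G) (hγ : ∀ r ∈ C.rels, evalW (bval γ) r = 1)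
    (hgen : Subgroup.closure (γ '' {i | i < 12}) = ⊤) (hcard : Nat.card G = 4245696) :
    Cfsg.HasCyclicSchurMultiplier G 3 :=
  main_of_chain chain γ hγ hgen hcard

theorem card_G2 : Nat.card G23B.G2 = 4245696 := by
  rw [Cfsg.Agent.S1059.result (F := G23B.F3) (q := 3) G23B.F3.card_eq]
  norm_num

/-- over the concrete field with three elements -/
theorem main_F3 : Cfsg.HasCyclicSchurMultiplier G23B.G2 3 := by
  have hfin : Finite G23B.G2 := Nat.finite_of_card_ne_zero (by rw [card_G2]; norm_num)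
  exact main G23B.γ G23B.γ_rel G23B.γ_gen card_G2

end Cfsg.Agent.Lib.Helper28.Mult.G23X
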