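import Cfsg.Agent.Lib.Helper28.Mult.Exist

set_option autoImplicit false
set_option maxRecDepth 100000

namespace Cfsg.Agent.Lib.Helper28.Mult.G24E

open Cfsg.Agent.Lib.Helper28

/-- the relators of the double cover of `G₂(4)`: letters `2 x`, `2 x + 1` for `x = a, …, f`, and `12`, `13` for `z` -/
def W1 : List (List ℕ) := [
  [0, 0],
  [2, 2],
  [4, 4],
  [6, 6, 13, 13, 13],
  [8, 8, 13, 13, 13],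
  [10, 10],
  [0, 2, 0, 2, 0, 2, 0, 2, 0, 2],
  [0, 4, 0, 4],
  [0, 6, 0, 6, 13, 13, 13],
  [0, 8, 0, 8, 13, 13, 13],
  [0, 10, 0, 10],
  [2, 4, 2, 4, 2, 4],
  [2, 6, 2, 6, 13, 13, 13],
  [2, 8, 2, 8, 13, 13, 13],
  [2, 10, 2, 10, 2, 10],
  [4, 6, 4, 6, 4, 6, 4, 6, 4, 6, 4, 6, 4, 6, 4, 6],
  [4, 8, 4, 8, 13, 13, 13],
  [4, 10, 4, 10],
  [6, 8, 6, 8, 6, 8],
  [6, 10, 6, 10, 13, 13, 13],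
  [8, 10, 8, 10, 13, 13, 13],
  [0, 7, 5, 7, 5, 7, 5, 7, 5],
  [0, 2, 4, 10, 0, 2, 4, 10, 0, 2, 4, 10, 0, 2, 4, 10, 0, 2, 4, 10, 13, 13, 13],
  [2, 4, 6, 4, 6, 2, 4, 6, 4, 6, 2, 4, 6, 4, 6, 2, 4, 6, 4, 6, 2, 4, 6, 4, 6, 8, 2, 4, 6, 4, 6, 2, 4, 6, 4, 6, 2, 4, 6, 4, 6, 2, 4, 6, 4, 6, 2, 4, 6, 4, 6, 8, 2, 4, 6, 4, 6, 2, 4, 6, 4, 6, 2, 4, 6, 4, 6, 2, 4, 6, 4, 6, 2, 4, 6, 4, 6, 8, 13, 13, 13],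
  [12, 0, 13, 1],
  [12, 2, 13, 3],
  [12, 4, 13, 5],
  [12, 6, 13, 7],
  [12, 8, 13, 9],
  [12, 10, 13, 11],
  [12, 12, 12, 12, 12, 12],
  [12, 12]]
def Vs : List (List ℕ) := [
  [0, 2, 4, 10, 0, 2, 4, 10, 0, 2, 4, 10, 0, 2, 4, 10, 0, 2, 4, 10, 13, 13, 13],
  [3, 1, 3, 1, 3, 1, 3, 1, 3, 1],
  [11, 5, 11, 5],
  [5, 3, 5, 3, 5, 3],
  [11, 3, 11, 3, 11, 3],
  [2, 2],
  [2, 2],
  [2, 2],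
  [12, 12],
  [12, 12]]

end Cfsg.Agent.Lib.Helper28.Mult.G24E
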