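import Cfsg.Agent.Lib.Helper28.Mult.SuzE2Data

set_option autoImplicit false
set_option maxRecDepth 100000

namespace Cfsg.Agent.Lib.Helper28.Mult.SuzE2

open Cfsg.Agent.Lib.Helper28

theorem lrel_4 : allRange (fun c => allList (fun w => L.checkRel w c) Cfsg.Agent.Lib.Helper28.Mult.SuzE.W0) 9600 2400 = true := by decide +kernel
theorem lrel_5 : allRange (fun c => allList (fun w => L.checkRel w c) Cfsg.Agent.Lib.Helper28.Mult.SuzE.W0) 12000 2400 = true := by decide +kernel
theorem lrel_6 : allRange (fun c => allList (fun w => L.checkRel w c) Cfsg.Agent.Lib.Helper28.Mult.SuzE.W0) 14400 2400 = true := by decide +kernel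
theorem lrel_7 : allRange (fun c => allList (fun w => L.checkRel w c) Cfsg.Agent.Lib.Helper28.Mult.SuzE.W0) 16800 2400 = true := by decide +kernel
theorem lrelF_1 : ∀ w ∈ Cfsg.Agent.Lib.Helper28.Mult.SuzE.W0, ∀ c, 9600 ≤ c → c < 19200 → L.checkRel w c = true := by
  intro w hw c h1 h2
  by_cases h4 : c < 12000
  · exact allList_iff.mp (allRange_iff.mp lrel_4 c (by omega) (by omega)) w hw
  by_cases h5 : c < 14400
  · exact allList_iff.mp (allRange_iff.mp lrel_5 c (by omega) (by omega)) w hw
  by_cases h6 : c < 16800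
  · exact allList_iff.mp (allRange_iff.mp lrel_6 c (by omega) (by omega)) w hw
  by_cases h7 : c < 19200
  · exact allList_iff.mp (allRange_iff.mp lrel_7 c (by omega) (by omega)) w hw
  omega

end Cfsg.Agent.Lib.Helper28.Mult.SuzE2
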