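import Cfsg.Agent.Lib.Helper28.Mult.SuzE2Data

set_option autoImplicit false
set_option maxRecDepth 100000

namespace Cfsg.Agent.Lib.Helper28.Mult.SuzE2

open Cfsg.Agent.Lib.Helper28

theorem lrel_8 : allRange (fun c => allList (fun w => L.checkRel w c) Cfsg.Agent.Lib.Helper28.Mult.SuzE.W0) 19200 2400 = true := by decide +kernel
theorem lrel_9 : allRange (fun c => allList (fun w => L.checkRel w c) Cfsg.Agent.Lib.Helper28.Mult.SuzE.W0) 21600 2400 = true := by decide +kernel
theorem lrel_10 : allRange (fun c => allList (fun w => L.checkRel w c) Cfsg.Agent.Lib.Helper28.Mult.SuzE.W0) 24000 2400 = true := by decide +kernel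
theorem lrel_11 : allRange (fun c => allList (fun w => L.checkRel w c) Cfsg.Agent.Lib.Helper28.Mult.SuzE.W0) 26400 2400 = true := by decide +kernel
theorem lrelF_2 : ∀ w ∈ Cfsg.Agent.Lib.Helper28.Mult.SuzE.W0, ∀ c, 19200 ≤ c → c < 28800 → L.checkRel w c = true := by
  intro w hw c h1 h2
  by_cases h8 : c < 21600
  · exact allList_iff.mp (allRange_iff.mp lrel_8 c (by omega) (by omega)) w hw
  by_cases h9 : c < 24000
  · exact allList_iff.mp (allRange_iff.mp lrel_9 c (by omega) (by omega)) w hw
  by_cases h10 : c < 26400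
  · exact allList_iff.mp (allRange_iff.mp lrel_10 c (by omega) (by omega)) w hw
  by_cases h11 : c < 28800
  · exact allList_iff.mp (allRange_iff.mp lrel_11 c (by omega) (by omega)) w hw
  omega

end Cfsg.Agent.Lib.Helper28.Mult.SuzE2
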