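import Cfsg.Agent.Lib.Helper28.Mult.SuzE2Data

set_option autoImplicit false
set_option maxRecDepth 100000

namespace Cfsg.Agent.Lib.Helper28.Mult.SuzE2

open Cfsg.Agent.Lib.Helper28

theorem lrel_12 : allRange (fun c => allList (fun w => L.checkRel w c) Cfsg.Agent.Lib.Helper28.Mult.SuzE.W0) 28800 2400 = true := by decide +kernel
theorem lrel_13 : allRange (fun c => allList (fun w => L.checkRel w c) Cfsg.Agent.Lib.Helper28.Mult.SuzE.W0) 31200 2400 = true := by decide +kernel
theorem lrel_14 : allRange (fun c => allList (fun w => L.checkRel w c) Cfsg.Agent.Lib.Helper28.Mult.SuzE.W0) 33600 2400 = true := by decide +kernel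
theorem lrel_15 : allRange (fun c => allList (fun w => L.checkRel w c) Cfsg.Agent.Lib.Helper28.Mult.SuzE.W0) 36000 2400 = true := by decide +kernel
theorem lrelF_3 : ∀ w ∈ Cfsg.Agent.Lib.Helper28.Mult.SuzE.W0, ∀ c, 28800 ≤ c → c < 38400 → L.checkRel w c = true := by
  intro w hw c h1 h2
  by_cases h12 : c < 31200
  · exact allList_iff.mp (allRange_iff.mp lrel_12 c (by omega) (by omega)) w hw
  by_cases h13 : c < 33600
  · exact allList_iff.mp (allRange_iff.mp lrel_13 c (by omega) (by omega)) w hw
  by_cases h14 : c < 36000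
  · exact allList_iff.mp (allRange_iff.mp lrel_14 c (by omega) (by omega)) w hw
  by_cases h15 : c < 38400
  · exact allList_iff.mp (allRange_iff.mp lrel_15 c (by omega) (by omega)) w hw
  omega

end Cfsg.Agent.Lib.Helper28.Mult.SuzE2
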