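import Cfsg.Agent.Lib.Helper28.Mult.SuzE2Data

set_option autoImplicit false
set_option maxRecDepth 100000

namespace Cfsg.Agent.Lib.Helper28.Mult.SuzE2

open Cfsg.Agent.Lib.Helper28

theorem lrel_16 : allRange (fun c => allList (fun w => L.checkRel w c) Cfsg.Agent.Lib.Helper28.Mult.SuzE.W0) 38400 2400 = true := by decide +kernel
theorem lrel_17 : allRange (fun c => allList (fun w => L.checkRel w c) Cfsg.Agent.Lib.Helper28.Mult.SuzE.W0) 40800 2400 = true := by decide +kernel
theorem lrel_18 : allRange (fun c => allList (fun w => L.checkRel w c) Cfsg.Agent.Lib.Helper28.Mult.SuzE.W0) 43200 2400 = true := by decide +kernel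
theorem lrel_19 : allRange (fun c => allList (fun w => L.checkRel w c) Cfsg.Agent.Lib.Helper28.Mult.SuzE.W0) 45600 2400 = true := by decide +kernel
theorem lrelF_4 : ∀ w ∈ Cfsg.Agent.Lib.Helper28.Mult.SuzE.W0, ∀ c, 38400 ≤ c → c < 48000 → L.checkRel w c = true := by
  intro w hw c h1 h2
  by_cases h16 : c < 40800
  · exact allList_iff.mp (allRange_iff.mp lrel_16 c (by omega) (by omega)) w hw
  by_cases h17 : c < 43200
  · exact allList_iff.mp (allRange_iff.mp lrel_17 c (by omega) (by omega)) w hw
  by_cases h18 : c < 45600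
  · exact allList_iff.mp (allRange_iff.mp lrel_18 c (by omega) (by omega)) w hw
  by_cases h19 : c < 48000
  · exact allList_iff.mp (allRange_iff.mp lrel_19 c (by omega) (by omega)) w hw
  omega

end Cfsg.Agent.Lib.Helper28.Mult.SuzE2
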