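import Cfsg.Agent.Lib.Helper28.Mult.SuzE2Data

set_option autoImplicit false
set_option maxRecDepth 100000

namespace Cfsg.Agent.Lib.Helper28.Mult.SuzE2

open Cfsg.Agent.Lib.Helper28

theorem lrel_20 : allRange (fun c => allList (fun w => L.checkRel w c) Cfsg.Agent.Lib.Helper28.Mult.SuzE.W0) 48000 2400 = true := by decide +kernel
theorem lrel_21 : allRange (fun c => allList (fun w => L.checkRel w c) Cfsg.Agent.Lib.Helper28.Mult.SuzE.W0) 50400 2400 = true := by decide +kernel
theorem lrel_22 : allRange (fun c => allList (fun w => L.checkRel w c) Cfsg.Agent.Lib.Helper28.Mult.SuzE.W0) 52800 2400 = true := by decide +kernel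
theorem lrel_23 : allRange (fun c => allList (fun w => L.checkRel w c) Cfsg.Agent.Lib.Helper28.Mult.SuzE.W0) 55200 2400 = true := by decide +kernel
theorem lrelF_5 : ∀ w ∈ Cfsg.Agent.Lib.Helper28.Mult.SuzE.W0, ∀ c, 48000 ≤ c → c < 57600 → L.checkRel w c = true := by
  intro w hw c h1 h2
  by_cases h20 : c < 50400
  · exact allList_iff.mp (allRange_iff.mp lrel_20 c (by omega) (by omega)) w hw
  by_cases h21 : c < 52800
  · exact allList_iff.mp (allRange_iff.mp lrel_21 c (by omega) (by omega)) w hw
  by_cases h22 : c < 55200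
  · exact allList_iff.mp (allRange_iff.mp lrel_22 c (by omega) (by omega)) w hw
  by_cases h23 : c < 57600
  · exact allList_iff.mp (allRange_iff.mp lrel_23 c (by omega) (by omega)) w hw
  omega

end Cfsg.Agent.Lib.Helper28.Mult.SuzE2
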