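import Cfsg.Agent.Lib.Helper28.Mult.SuzE2Data

set_option autoImplicit false
set_option maxRecDepth 100000

namespace Cfsg.Agent.Lib.Helper28.Mult.SuzE2

open Cfsg.Agent.Lib.Helper28

theorem lrel_24 : allRange (fun c => allList (fun w => L.checkRel w c) Cfsg.Agent.Lib.Helper28.Mult.SuzE.W0) 57600 2400 = true := by decide +kernel
theorem lrel_25 : allRange (fun c => allList (fun w => L.checkRel w c) Cfsg.Agent.Lib.Helper28.Mult.SuzE.W0) 60000 2400 = true := by decide +kernel
theorem lrel_26 : allRange (fun c => allList (fun w => L.checkRel w c) Cfsg.Agent.Lib.Helper28.Mult.SuzE.W0) 62400 2400 = true := by decide +kernel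
theorem lrel_27 : allRange (fun c => allList (fun w => L.checkRel w c) Cfsg.Agent.Lib.Helper28.Mult.SuzE.W0) 64800 720 = true := by decide +kernel
theorem lrelF_6 : ∀ w ∈ Cfsg.Agent.Lib.Helper28.Mult.SuzE.W0, ∀ c, 57600 ≤ c → c < 65520 → L.checkRel w c = true := by
  intro w hw c h1 h2
  by_cases h24 : c < 60000
  · exact allList_iff.mp (allRange_iff.mp lrel_24 c (by omega) (by omega)) w hw
  by_cases h25 : c < 62400
  · exact allList_iff.mp (allRange_iff.mp lrel_25 c (by omega) (by omega)) w hw
  by_cases h26 : c < 64800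
  · exact allList_iff.mp (allRange_iff.mp lrel_26 c (by omega) (by omega)) w hw
  by_cases h27 : c < 65520
  · exact allList_iff.mp (allRange_iff.mp lrel_27 c (by omega) (by omega)) w hw
  omega

end Cfsg.Agent.Lib.Helper28.Mult.SuzE2
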