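import Cfsg.Agent.Lib.Helper28.Mult.SuzE2C0
import Cfsg.Agent.Lib.Helper28.Mult.SuzE2C1
import Cfsg.Agent.Lib.Helper28.Mult.SuzE2C2
import Cfsg.Agent.Lib.Helper28.Mult.SuzE2C3
import Cfsg.Agent.Lib.Helper28.Mult.SuzE2C4
import Cfsg.Agent.Lib.Helper28.Mult.SuzE2C5
import Cfsg.Agent.Lib.Helper28.Mult.SuzE2C6

set_option autoImplicit false
set_option maxRecDepth 100000

namespace Cfsg.Agent.Lib.Helper28.Mult.SuzE2

open Cfsg.Agent.Lib.Helper28

theorem lrel_all : ∀ w ∈ Cfsg.Agent.Lib.Helper28.Mult.SuzE.W0, ∀ c < L.n, L.checkRel w c = true := by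
  intro w hw c hc
  have hc' : c < 65520 := hc
  by_cases h0 : c < 9600
  · exact lrelF_0 w hw c (by omega) (by omega)
  by_cases h1 : c < 19200
  · exact lrelF_1 w hw c (by omega) (by omega)
  by_cases h2 : c < 28800
  · exact lrelF_2 w hw c (by omega) (by omega)
  by_cases h3 : c < 38400
  · exact lrelF_3 w hw c (by omega) (by omega)
  by_cases h4 : c < 48000
  · exact lrelF_4 w hw c (by omega) (by omega)
  by_cases h5 : c < 57600
  · exact lrelF_5 w hw c (by omega) (by omega)
  by_cases h6 : c < 65520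
  · exact lrelF_6 w hw c (by omega) (by omega)
  omega
theorem point_ok : allBelow L.checkPoint 65520 = true := by decide +kernel
theorem tree_ok : allBelow L.checkTree 65520 = true := by decide +kernel
theorem valid : L.Valid where
  invK := by
    intro x hx
    have hx' : x < 16 := hx
    interval_cases x <;> exact ⟨by decide, rfl⟩
  point := allBelow_iff.mp point_ok
  tree := allBelow_iff.mp tree_ok

end Cfsg.Agent.Lib.Helper28.Mult.SuzE2
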