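import Cfsg.Agent.Lib.Helper28.Mult.G24Main
import Cfsg.Agent.Lib.Helper28.Mult.G24E
import Cfsg.Agent.Lib.Helper28.Mult.SuzE2
import Cfsg.Agent.Lib.Helper93.G24.Iso
import Cfsg.Agent.Lib.Helper28.Embed

/-!
# The Schur multiplier of the presented group `G₂(4) = ⟨a, …, f⟩` is cyclic of order 2 (helper28)

The model of the double cover is the table of `2.Suz` on 65520 points, restricted to `a, …, f, z`.
-/

set_option autoImplicit false
set_option maxRecDepth 100000

namespace Cfsg.Agent.Lib.Helper28.Mult.G24E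

open Cfsg.Agent.Lib.Helper28

open Cfsg.Agent.Lib.Helper28.Mult.G24M (QG)

/-- letters of the cover as words in the generators of `G₂(4)` -/
def tw (l : ℕ) : List ℕ := if l < 12 then [l / 2] else []

noncomputable def γ0 (i : ℕ) : QG.Grp := if i < 6 then QG.val i else 1

theorem val_inv' (x : ℕ) (hx : x < 6) : (QG.val x)⁻¹ = QG.val x := by
  have h := Cfsg.Agent.Lib.Helper93.G24.ok.val_inv x hx
  have e : QG.P.inv x = x := by interval_cases x <;> rfl
  rw [e] at h
  exact h.symm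

theorem bval_γ0 (l : ℕ) : bval γ0 l = evalW QG.val (tw l) := by
  unfold bval tw γ0
  by_cases h : l < 12
  · rw [if_pos h, if_pos (show l / 2 < 6 by omega), evalW_cons, evalW_nil, mul_one]
    split_ifs
    · rfl
    · exact val_inv' _ (by omega)
  · rw [if_neg h, if_neg (show ¬ l / 2 < 6 by omega), evalW_nil]
    split_ifs <;> simp

theorem W1_chk : ∀ w ∈ W1, (∀ y ∈ w.flatMap tw, y < 6) ∧
    ∀ b ∈ Cfsg.Agent.Lib.Helper93.G24.levels.map Lev.b,
      ptrace Cfsg.Agent.Lib.Helper93.G24.L.pt (w.flatMap tw) b = b + 1 := by decide +kernel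

theorem hγ0 : ∀ w ∈ W1, evalW (bval γ0) w = 1 := by
  intro w hw
  have e : evalW (bval γ0) w = evalW QG.val (w.flatMap tw) := by
    rw [← evalW_flatMap]
    exact Prob.evalW_congr (fun y _ => bval_γ0 y)
  rw [e]
  exact G24M.word_one _ (W1_chk w hw).1 (W1_chk w hw).2

theorem hWk : ∀ w ∈ W1, ∀ y ∈ w, y < 2 * (6 + 1) := by decide +kernel
theorem hcomm : ∀ x < 6, [2 * 6, 2 * x, 2 * 6 + 1, 2 * x + 1] ∈ W1 := by decide +kernel
theorem hpow : List.replicate 2 (2 * 6) ∈ W1 := by decide +kernel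
theorem hVs : ∀ v ∈ Vs, v ∈ W1 ∨ invW v ∈ W1 := by decide +kernel
theorem hVk : ∀ y ∈ Vs.flatten, y < 2 * (6 + 1) := by decide +kernel
theorem hV0 : ∀ i < 6, esum i Vs.flatten = 0 := by decide +kernel
theorem hV1 : esum 6 Vs.flatten = 1 := by decide +kernel
theorem hsq : ∀ x < 6, [2 * x, 2 * x] ∈ W1 ∨ [2 * x, 2 * x, 13, 13, 13] ∈ W1 := by decide +kernel
theorem hwords : ∀ w ∈ Cfsg.Agent.Lib.Helper93.G24.W, w ∈ W1.map (fun w' => w'.flatMap tw) := by
  decide +kernel

theorem hsurj : Subgroup.closure (γ0 '' {i | i < 6}) = ⊤ := by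
  rw [eq_top_iff, ← Cfsg.Agent.Lib.Helper93.G24.ok.top]
  apply Subgroup.closure_mono
  rintro _ ⟨x, hx, rfl⟩
  have hx6 : x < 6 := hx
  exact ⟨x, hx6, by unfold γ0; rw [if_pos hx6]⟩

theorem hψ (N : Subgroup (CG (6 + 1) W1)) [N.Normal] (hN : CG.gen (6 + 1) W1 6 ∈ N) :
    ∃ ψ : QG.Grp →* CG (6 + 1) W1 ⧸ N, ∀ i < 6, ψ (γ0 i) = QuotientGroup.mk' N (CG.gen (6 + 1) W1 i) := by
  let q := QuotientGroup.mk' N
  let v : ℕ → CG (6 + 1) W1 ⧸ N := fun x => q (CG.gen (6 + 1) W1 x)
  have hz : v 6 = 1 := (QuotientGroup.eq_one_iff _).mpr hN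
  have hrel : ∀ w ∈ W1, evalW (bval v) w = 1 := by
    intro w hw
    have h := map_evalW_bval q (CG.gen (6 + 1) W1) w
    rw [CG.rel hw, map_one] at h
    exact h.symm
  have b12 : bval v 12 = 1 := by unfold bval; simpa using hz
  have b13 : bval v 13 = 1 := by unfold bval; simpa using hz
  have hinv : ∀ x < 6, (v x)⁻¹ = v x := by
    intro x hx
    have e0 : bval v (2 * x) = v x := by unfold bval; rw [if_pos (by omega)]; congr 1; omega
    have h2 : v x * v x = 1 := by
      rcases hsq x hx with h | h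
      · have := hrel _ h
        simpa [evalW_cons, e0] using this
      · have := hrel _ h
        simpa [evalW_cons, e0, b13] using this
    exact inv_eq_of_mul_eq_one_left h2
  have hb : ∀ l < 14, bval v l = evalW v (tw l) := by
    intro l hl
    by_cases h : l < 12
    · unfold bval tw
      rw [if_pos h, evalW_cons, evalW_nil, mul_one]
      split_ifs
      · rfl
      · exact hinv _ (by omega)
    · have : l = 12 ∨ l = 13 := by omega
      rcases this with rfl | rfl
      · rw [b12]; rfl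
      · rw [b13]; rfl
  have hW : ∀ w ∈ Cfsg.Agent.Lib.Helper93.G24.W, evalW v w = 1 := by
    intro w hw
    obtain ⟨w', hw', rfl⟩ := List.mem_map.mp (hwords w hw)
    rw [← evalW_flatMap, ← hrel w' hw']
    exact (Prob.evalW_congr (fun y hy => hb y (hWk w' hw' y hy))).symm
  obtain ⟨f, hf⟩ := Cfsg.Agent.Lib.Helper93.G24.exists_hom v hW
  refine ⟨f, fun i hi => ?_⟩
  unfold γ0
  rw [if_pos hi]
  exact hf i hi

/-- new letters to the letters of the cover of `Suz` -/
def ren (l : ℕ) : ℕ := if l < 12 then l else l + 2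

/-- the model -/
noncomputable def δ (i : ℕ) : Equiv.Perm ℕ := (LB.perm SuzE2.valid (ren (2 * i)))⁻¹

theorem bval_δ (y : ℕ) (hy : y < 14) : bval δ y = (LB.perm SuzE2.valid (ren y))⁻¹ := by
  unfold bval δ
  by_cases hp : y % 2 = 0
  · rw [if_pos hp]
    have : 2 * (y / 2) = y := by omega
    rw [this]
  · rw [if_neg hp, inv_inv]
    have h1 : ren y = oinv (ren (2 * (y / 2))) := by
      unfold oinv ren
      split_ifs <;> omega
    have h2 := LB.perm_inv SuzE2.valid (x := ren (2 * (y / 2))) (by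
      show ren (2 * (y / 2)) < 16
      unfold ren
      split_ifs <;> omega)
    have h3 : SuzE2.L.inv = oinv := rfl
    rw [h3, ← h1] at h2
    rw [h2, inv_inv]

theorem eval_δ (w : List ℕ) (hw : ∀ y ∈ w, y < 14) :
    evalW (bval δ) w = evalW (fun x => (LB.perm SuzE2.valid x)⁻¹) (w.map ren) := by
  rw [evalW_map]
  exact Prob.evalW_congr (fun y hy => bval_δ y (hw y hy))

theorem ren_lt (w : List ℕ) (hw : ∀ y ∈ w, y < 14) : ∀ y ∈ w.map ren, y < SuzE2.L.K := by
  intro y hy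
  obtain ⟨a, ha, rfl⟩ := List.mem_map.mp hy
  have := hw a ha
  show ren a < 16
  unfold ren
  split_ifs <;> omega

theorem W1_ren : ∀ w ∈ W1, w.map ren ∈ SuzE.W0 ∨ w.map ren = [14, 14] := by decide +kernel

theorem zz_chk : allBelow (fun c => SuzE2.L.checkRel [14, 14] c) 65520 = true := by decide +kernel

theorem hδ : ∀ w ∈ W1, evalW (bval δ) w = 1 := by
  intro w hw
  rw [eval_δ w (hWk w hw)]
  apply LB.evalW_perm_eq_one SuzE2.valid _ (ren_lt w (hWk w hw))
  rcases W1_ren w hw with h | h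
  · exact SuzE2.lrel_all _ h
  · rw [h]
    exact allBelow_iff.mp zz_chk

theorem ne1 : ptrace SuzE2.L.pt [14] 0 ≠ 0 + 1 := by decide +kernel

theorem model_ne {L : LB} (V : L.Valid) (w : List ℕ) (hw : ∀ y ∈ w, y < L.K) (c : ℕ) (hc : c < L.n)
    (h : ptrace L.pt w c ≠ c + 1) : evalW (fun x => (LB.perm V x)⁻¹) w ≠ 1 := by
  intro he
  apply h
  have h1 := LB.evalW_perm V w hw c
  rw [he, inv_one, Equiv.Perm.one_apply] at h1
  rw [V.ptrace_eq w hw hc, ← h1]

theorem hord : ∀ d, d < 2 → 0 < d → δ 6 ^ d ≠ 1 := by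
  intro d hd hd0 hcon
  have hd1 : d = 1 := by omega
  subst hd1
  rw [pow_one] at hcon
  have e : evalW (bval δ) [12] = δ 6 := by
    rw [evalW_cons, evalW_nil, mul_one]; rfl
  have hl : ∀ y ∈ [12], y < 14 := by decide
  rw [eval_δ _ hl, hcon] at e
  exact model_ne SuzE2.valid _ (ren_lt _ hl) 0 (by decide) ne1 e

/-- the Schur multiplier of `G₂(4)` is cyclic of order 2 -/
theorem main : Cfsg.HasCyclicSchurMultiplier QG.Grp 2 := by
  have hfinG : Finite QG.Grp :=
    Nat.finite_of_card_ne_zero (by rw [Cfsg.Agent.Lib.Helper93.G24.main.2.1]; norm_num)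
  obtain ⟨σ, hfin, hstem, ⟨e⟩⟩ := CG.stem (G := QG.Grp) (n := 6) (m := 2) (W := W1) (by norm_num) hWk hcomm hpow
    γ0 (by unfold γ0; rw [if_neg (by norm_num)]) hγ0 hsurj (fun N _ hN => hψ N hN) δ hδ hord Vs hVs hVk hV0 hV1
  refine Cfsg.Agent.Lib.Helper66.hasSchurMultiplier_of_card_le σ hstem e ?_
  intro Δ _ _ τ hτ
  have h1 := G24M.card_le τ hτ
  have h2 : Nat.card Δ = Nat.card QG.Grp * Nat.card τ.ker := by
    rw [Subgroup.card_eq_card_quotient_mul_card_subgroup τ.ker,
      Nat.card_congr (QuotientGroup.quotientKerEquivOfSurjective τ hτ.1).toEquiv]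
  rw [h2, Cfsg.Agent.Lib.Helper93.G24.main.2.1] at h1
  have h3 : Nat.card (Multiplicative (ZMod 2)) = 2 := by
    rw [Nat.card_eq_fintype_card]; rfl
  rw [h3]
  have : 251596800 * Nat.card τ.ker ≤ 251596800 * 2 := by omega
  exact Nat.le_of_mul_le_mul_left this (by norm_num)

end Cfsg.Agent.Lib.Helper28.Mult.G24E
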