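import Cfsg.Agent.Lib.Helper28.Mult.SuzMCData

set_option autoImplicit false
set_option maxRecDepth 100000

namespace Cfsg.Agent.Lib.Helper28.V2.SuzMC

open Cfsg.Agent.Lib.Helper28

theorem chk_12 : allRange D.checkLabel 1751 222 = true := by decide +kernel
theorem chk_13 : allRange D.checkLabel 1973 224 = true := by decide +kernel
theorem chk_14 : allRange D.checkLabel 2197 330 = true := by decide +kernel
theorem chk_15 : allRange D.checkLabel 2527 256 = true := by decide +kernel
theorem chk_16 : allRange D.checkLabel 2783 247 = true := by decide +kernel
theorem chk_17 : allRange D.checkLabel 3030 192 = true := by decide +kernel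
theorem chk_18 : allRange D.checkLabel 3222 286 = true := by decide +kernel
theorem chk_19 : allRange D.checkLabel 3508 269 = true := by decide +kernel
theorem chk_20 : allRange D.checkLabel 3777 345 = true := by decide +kernel
theorem chk_21 : allRange D.checkLabel 4122 330 = true := by decide +kernel
theorem chk_22 : allRange D.checkLabel 4452 303 = true := by decide +kernel
theorem chk_23 : allRange D.checkLabel 4755 354 = true := by decide +kernel
theorem chkF_1 : ∀ c, 1751 ≤ c → c < 5109 → D.checkLabel c = true := by
  intro c h1 h2
  by_cases h12 : c < 1973
  · exact allRange_iff.mp chk_12 c (by omega) (by omega)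
  by_cases h13 : c < 2197
  · exact allRange_iff.mp chk_13 c (by omega) (by omega)
  by_cases h14 : c < 2527
  · exact allRange_iff.mp chk_14 c (by omega) (by omega)
  by_cases h15 : c < 2783
  · exact allRange_iff.mp chk_15 c (by omega) (by omega)
  by_cases h16 : c < 3030
  · exact allRange_iff.mp chk_16 c (by omega) (by omega)
  by_cases h17 : c < 3222
  · exact allRange_iff.mp chk_17 c (by omega) (by omega)
  by_cases h18 : c < 3508
  · exact allRange_iff.mp chk_18 c (by omega) (by omega)
  by_cases h19 : c < 3777
  · exact allRange_iff.mp chk_19 c (by omega) (by omega)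
  by_cases h20 : c < 4122
  · exact allRange_iff.mp chk_20 c (by omega) (by omega)
  by_cases h21 : c < 4452
  · exact allRange_iff.mp chk_21 c (by omega) (by omega)
  by_cases h22 : c < 4755
  · exact allRange_iff.mp chk_22 c (by omega) (by omega)
  by_cases h23 : c < 5109
  · exact allRange_iff.mp chk_23 c (by omega) (by omega)
  omega

end Cfsg.Agent.Lib.Helper28.V2.SuzMC
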