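import Cfsg.Agent.Lib.Helper28.Mult.SuzMCData

set_option autoImplicit false
set_option maxRecDepth 100000

namespace Cfsg.Agent.Lib.Helper28.V2.SuzMC

open Cfsg.Agent.Lib.Helper28

theorem chk_120 : allRange D.checkLabel 39008 322 = true := by decide +kernel
theorem chk_121 : allRange D.checkLabel 39330 452 = true := by decide +kernel
theorem chk_122 : allRange D.checkLabel 39782 365 = true := by decide +kernel
theorem chk_123 : allRange D.checkLabel 40147 557 = true := by decide +kernel
theorem chk_124 : allRange D.checkLabel 40704 348 = true := by decide +kernel
theorem chk_125 : allRange D.checkLabel 41052 302 = true := by decide +kernel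
theorem chk_126 : allRange D.checkLabel 41354 468 = true := by decide +kernel
theorem chk_127 : allRange D.checkLabel 41822 271 = true := by decide +kernel
theorem chk_128 : allRange D.checkLabel 42093 250 = true := by decide +kernel
theorem chk_129 : allRange D.checkLabel 42343 400 = true := by decide +kernel
theorem chk_130 : allRange D.checkLabel 42743 577 = true := by decide +kernel
theorem chk_131 : allRange D.checkLabel 43320 335 = true := by decide +kernel
theorem chkF_10 : ∀ c, 39008 ≤ c → c < 43655 → D.checkLabel c = true := by
  intro c h1 h2
  by_cases h120 : c < 39330
  · exact allRange_iff.mp chk_120 c (by omega) (by omega)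
  by_cases h121 : c < 39782
  · exact allRange_iff.mp chk_121 c (by omega) (by omega)
  by_cases h122 : c < 40147
  · exact allRange_iff.mp chk_122 c (by omega) (by omega)
  by_cases h123 : c < 40704
  · exact allRange_iff.mp chk_123 c (by omega) (by omega)
  by_cases h124 : c < 41052
  · exact allRange_iff.mp chk_124 c (by omega) (by omega)
  by_cases h125 : c < 41354
  · exact allRange_iff.mp chk_125 c (by omega) (by omega)
  by_cases h126 : c < 41822
  · exact allRange_iff.mp chk_126 c (by omega) (by omega)
  by_cases h127 : c < 42093
  · exact allRange_iff.mp chk_127 c (by omega) (by omega)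
  by_cases h128 : c < 42343
  · exact allRange_iff.mp chk_128 c (by omega) (by omega)
  by_cases h129 : c < 42743
  · exact allRange_iff.mp chk_129 c (by omega) (by omega)
  by_cases h130 : c < 43320
  · exact allRange_iff.mp chk_130 c (by omega) (by omega)
  by_cases h131 : c < 43655
  · exact allRange_iff.mp chk_131 c (by omega) (by omega)
  omega

end Cfsg.Agent.Lib.Helper28.V2.SuzMC
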