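import Cfsg.Agent.Lib.Helper28.Mult.SuzMCData

set_option autoImplicit false
set_option maxRecDepth 100000

namespace Cfsg.Agent.Lib.Helper28.V2.SuzMC

open Cfsg.Agent.Lib.Helper28

theorem chk_144 : allRange D.checkLabel 47986 517 = true := by decide +kernel
theorem chk_145 : allRange D.checkLabel 48503 282 = true := by decide +kernel
theorem chk_146 : allRange D.checkLabel 48785 376 = true := by decide +kernel
theorem chk_147 : allRange D.checkLabel 49161 432 = true := by decide +kernel
theorem chk_148 : allRange D.checkLabel 49593 311 = true := by decide +kernel
theorem chk_149 : allRange D.checkLabel 49904 296 = true := by decide +kernel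
theorem chk_150 : allRange D.checkLabel 50200 408 = true := by decide +kernel
theorem chk_151 : allRange D.checkLabel 50608 457 = true := by decide +kernel
theorem chk_152 : allRange D.checkLabel 51065 319 = true := by decide +kernel
theorem chk_153 : allRange D.checkLabel 51384 339 = true := by decide +kernel
theorem chk_154 : allRange D.checkLabel 51723 221 = true := by decide +kernel
theorem chk_155 : allRange D.checkLabel 51944 321 = true := by decide +kernel
theorem chkF_12 : ∀ c, 47986 ≤ c → c < 52265 → D.checkLabel c = true := by
  intro c h1 h2
  by_cases h144 : c < 48503
  · exact allRange_iff.mp chk_144 c (by omega) (by omega)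
  by_cases h145 : c < 48785
  · exact allRange_iff.mp chk_145 c (by omega) (by omega)
  by_cases h146 : c < 49161
  · exact allRange_iff.mp chk_146 c (by omega) (by omega)
  by_cases h147 : c < 49593
  · exact allRange_iff.mp chk_147 c (by omega) (by omega)
  by_cases h148 : c < 49904
  · exact allRange_iff.mp chk_148 c (by omega) (by omega)
  by_cases h149 : c < 50200
  · exact allRange_iff.mp chk_149 c (by omega) (by omega)
  by_cases h150 : c < 50608
  · exact allRange_iff.mp chk_150 c (by omega) (by omega)
  by_cases h151 : c < 51065
  · exact allRange_iff.mp chk_151 c (by omega) (by omega)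
  by_cases h152 : c < 51384
  · exact allRange_iff.mp chk_152 c (by omega) (by omega)
  by_cases h153 : c < 51723
  · exact allRange_iff.mp chk_153 c (by omega) (by omega)
  by_cases h154 : c < 51944
  · exact allRange_iff.mp chk_154 c (by omega) (by omega)
  by_cases h155 : c < 52265
  · exact allRange_iff.mp chk_155 c (by omega) (by omega)
  omega

end Cfsg.Agent.Lib.Helper28.V2.SuzMC
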