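import Cfsg.Agent.Lib.Helper28.Mult.SuzMCData

set_option autoImplicit false
set_option maxRecDepth 100000

namespace Cfsg.Agent.Lib.Helper28.V2.SuzMC

open Cfsg.Agent.Lib.Helper28

theorem chk_156 : allRange D.checkLabel 52265 345 = true := by decide +kernel
theorem chk_157 : allRange D.checkLabel 52610 439 = true := by decide +kernel
theorem chk_158 : allRange D.checkLabel 53049 246 = true := by decide +kernel
theorem chk_159 : allRange D.checkLabel 53295 258 = true := by decide +kernel
theorem chk_160 : allRange D.checkLabel 53553 335 = true := by decide +kernel
theorem chk_161 : allRange D.checkLabel 53888 338 = true := by decide +kernel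
theorem chk_162 : allRange D.checkLabel 54226 361 = true := by decide +kernel
theorem chk_163 : allRange D.checkLabel 54587 540 = true := by decide +kernel
theorem chk_164 : allRange D.checkLabel 55127 502 = true := by decide +kernel
theorem chk_165 : allRange D.checkLabel 55629 688 = true := by decide +kernel
theorem chk_166 : allRange D.checkLabel 56317 652 = true := by decide +kernel
theorem chk_167 : allRange D.checkLabel 56969 658 = true := by decide +kernel
theorem chkF_13 : ∀ c, 52265 ≤ c → c < 57627 → D.checkLabel c = true := by
  intro c h1 h2
  by_cases h156 : c < 52610
  · exact allRange_iff.mp chk_156 c (by omega) (by omega)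
  by_cases h157 : c < 53049
  · exact allRange_iff.mp chk_157 c (by omega) (by omega)
  by_cases h158 : c < 53295
  · exact allRange_iff.mp chk_158 c (by omega) (by omega)
  by_cases h159 : c < 53553
  · exact allRange_iff.mp chk_159 c (by omega) (by omega)
  by_cases h160 : c < 53888
  · exact allRange_iff.mp chk_160 c (by omega) (by omega)
  by_cases h161 : c < 54226
  · exact allRange_iff.mp chk_161 c (by omega) (by omega)
  by_cases h162 : c < 54587
  · exact allRange_iff.mp chk_162 c (by omega) (by omega)
  by_cases h163 : c < 55127
  · exact allRange_iff.mp chk_163 c (by omega) (by omega)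
  by_cases h164 : c < 55629
  · exact allRange_iff.mp chk_164 c (by omega) (by omega)
  by_cases h165 : c < 56317
  · exact allRange_iff.mp chk_165 c (by omega) (by omega)
  by_cases h166 : c < 56969
  · exact allRange_iff.mp chk_166 c (by omega) (by omega)
  by_cases h167 : c < 57627
  · exact allRange_iff.mp chk_167 c (by omega) (by omega)
  omega

end Cfsg.Agent.Lib.Helper28.V2.SuzMC
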