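import Cfsg.Agent.Lib.Helper28.Mult.SuzMCData

set_option autoImplicit false
set_option maxRecDepth 100000

namespace Cfsg.Agent.Lib.Helper28.V2.SuzMC

open Cfsg.Agent.Lib.Helper28

theorem chk_168 : allRange D.checkLabel 57627 430 = true := by decide +kernel
theorem chk_169 : allRange D.checkLabel 58057 280 = true := by decide +kernel
theorem chk_170 : allRange D.checkLabel 58337 212 = true := by decide +kernel
theorem chk_171 : allRange D.checkLabel 58549 261 = true := by decide +kernel
theorem chk_172 : allRange D.checkLabel 58810 275 = true := by decide +kernel
theorem chk_173 : allRange D.checkLabel 59085 288 = true := by decide +kernel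
theorem chk_174 : allRange D.checkLabel 59373 529 = true := by decide +kernel
theorem chk_175 : allRange D.checkLabel 59902 465 = true := by decide +kernel
theorem chk_176 : allRange D.checkLabel 60367 441 = true := by decide +kernel
theorem chk_177 : allRange D.checkLabel 60808 350 = true := by decide +kernel
theorem chk_178 : allRange D.checkLabel 61158 419 = true := by decide +kernel
theorem chk_179 : allRange D.checkLabel 61577 376 = true := by decide +kernel
theorem chkF_14 : ∀ c, 57627 ≤ c → c < 61953 → D.checkLabel c = true := by
  intro c h1 h2
  by_cases h168 : c < 58057
  · exact allRange_iff.mp chk_168 c (by omega) (by omega)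
  by_cases h169 : c < 58337
  · exact allRange_iff.mp chk_169 c (by omega) (by omega)
  by_cases h170 : c < 58549
  · exact allRange_iff.mp chk_170 c (by omega) (by omega)
  by_cases h171 : c < 58810
  · exact allRange_iff.mp chk_171 c (by omega) (by omega)
  by_cases h172 : c < 59085
  · exact allRange_iff.mp chk_172 c (by omega) (by omega)
  by_cases h173 : c < 59373
  · exact allRange_iff.mp chk_173 c (by omega) (by omega)
  by_cases h174 : c < 59902
  · exact allRange_iff.mp chk_174 c (by omega) (by omega)
  by_cases h175 : c < 60367
  · exact allRange_iff.mp chk_175 c (by omega) (by omega)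
  by_cases h176 : c < 60808
  · exact allRange_iff.mp chk_176 c (by omega) (by omega)
  by_cases h177 : c < 61158
  · exact allRange_iff.mp chk_177 c (by omega) (by omega)
  by_cases h178 : c < 61577
  · exact allRange_iff.mp chk_178 c (by omega) (by omega)
  by_cases h179 : c < 61953
  · exact allRange_iff.mp chk_179 c (by omega) (by omega)
  omega

end Cfsg.Agent.Lib.Helper28.V2.SuzMC
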