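import Cfsg.Agent.Lib.Helper28.Mult.SuzMCData

set_option autoImplicit false
set_option maxRecDepth 100000

namespace Cfsg.Agent.Lib.Helper28.V2.SuzMC

open Cfsg.Agent.Lib.Helper28

theorem chk_180 : allRange D.checkLabel 61953 361 = true := by decide +kernel
theorem chk_181 : allRange D.checkLabel 62314 512 = true := by decide +kernel
theorem chk_182 : allRange D.checkLabel 62826 537 = true := by decide +kernel
theorem chk_183 : allRange D.checkLabel 63363 363 = true := by decide +kernel
theorem chk_184 : allRange D.checkLabel 63726 353 = true := by decide +kernel
theorem chk_185 : allRange D.checkLabel 64079 372 = true := by decide +kernel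
theorem chk_186 : allRange D.checkLabel 64451 366 = true := by decide +kernel
theorem chk_187 : allRange D.checkLabel 64817 385 = true := by decide +kernel
theorem chk_188 : allRange D.checkLabel 65202 384 = true := by decide +kernel
theorem chk_189 : allRange D.checkLabel 65586 395 = true := by decide +kernel
theorem chk_190 : allRange D.checkLabel 65981 469 = true := by decide +kernel
theorem chk_191 : allRange D.checkLabel 66450 426 = true := by decide +kernel
theorem chkF_15 : ∀ c, 61953 ≤ c → c < 66876 → D.checkLabel c = true := by
  intro c h1 h2
  by_cases h180 : c < 62314
  · exact allRange_iff.mp chk_180 c (by omega) (by omega)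
  by_cases h181 : c < 62826
  · exact allRange_iff.mp chk_181 c (by omega) (by omega)
  by_cases h182 : c < 63363
  · exact allRange_iff.mp chk_182 c (by omega) (by omega)
  by_cases h183 : c < 63726
  · exact allRange_iff.mp chk_183 c (by omega) (by omega)
  by_cases h184 : c < 64079
  · exact allRange_iff.mp chk_184 c (by omega) (by omega)
  by_cases h185 : c < 64451
  · exact allRange_iff.mp chk_185 c (by omega) (by omega)
  by_cases h186 : c < 64817
  · exact allRange_iff.mp chk_186 c (by omega) (by omega)
  by_cases h187 : c < 65202
  · exact allRange_iff.mp chk_187 c (by omega) (by omega)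
  by_cases h188 : c < 65586
  · exact allRange_iff.mp chk_188 c (by omega) (by omega)
  by_cases h189 : c < 65981
  · exact allRange_iff.mp chk_189 c (by omega) (by omega)
  by_cases h190 : c < 66450
  · exact allRange_iff.mp chk_190 c (by omega) (by omega)
  by_cases h191 : c < 66876
  · exact allRange_iff.mp chk_191 c (by omega) (by omega)
  omega

end Cfsg.Agent.Lib.Helper28.V2.SuzMC
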