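import Cfsg.Agent.Lib.Helper28.Mult.SuzMCData

set_option autoImplicit false
set_option maxRecDepth 100000

namespace Cfsg.Agent.Lib.Helper28.V2.SuzMC

open Cfsg.Agent.Lib.Helper28

theorem chk_192 : allRange D.checkLabel 66876 497 = true := by decide +kernel
theorem chk_193 : allRange D.checkLabel 67373 421 = true := by decide +kernel
theorem chk_194 : allRange D.checkLabel 67794 408 = true := by decide +kernel
theorem chk_195 : allRange D.checkLabel 68202 419 = true := by decide +kernel
theorem chk_196 : allRange D.checkLabel 68621 578 = true := by decide +kernel
theorem chk_197 : allRange D.checkLabel 69199 390 = true := by decide +kernel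
theorem chk_198 : allRange D.checkLabel 69589 354 = true := by decide +kernel
theorem chk_199 : allRange D.checkLabel 69943 482 = true := by decide +kernel
theorem chk_200 : allRange D.checkLabel 70425 285 = true := by decide +kernel
theorem chk_201 : allRange D.checkLabel 70710 469 = true := by decide +kernel
theorem chk_202 : allRange D.checkLabel 71179 230 = true := by decide +kernel
theorem chk_203 : allRange D.checkLabel 71409 312 = true := by decide +kernel
theorem chkF_16 : ∀ c, 66876 ≤ c → c < 71721 → D.checkLabel c = true := by
  intro c h1 h2
  by_cases h192 : c < 67373
  · exact allRange_iff.mp chk_192 c (by omega) (by omega)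
  by_cases h193 : c < 67794
  · exact allRange_iff.mp chk_193 c (by omega) (by omega)
  by_cases h194 : c < 68202
  · exact allRange_iff.mp chk_194 c (by omega) (by omega)
  by_cases h195 : c < 68621
  · exact allRange_iff.mp chk_195 c (by omega) (by omega)
  by_cases h196 : c < 69199
  · exact allRange_iff.mp chk_196 c (by omega) (by omega)
  by_cases h197 : c < 69589
  · exact allRange_iff.mp chk_197 c (by omega) (by omega)
  by_cases h198 : c < 69943
  · exact allRange_iff.mp chk_198 c (by omega) (by omega)
  by_cases h199 : c < 70425
  · exact allRange_iff.mp chk_199 c (by omega) (by omega)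
  by_cases h200 : c < 70710
  · exact allRange_iff.mp chk_200 c (by omega) (by omega)
  by_cases h201 : c < 71179
  · exact allRange_iff.mp chk_201 c (by omega) (by omega)
  by_cases h202 : c < 71409
  · exact allRange_iff.mp chk_202 c (by omega) (by omega)
  by_cases h203 : c < 71721
  · exact allRange_iff.mp chk_203 c (by omega) (by omega)
  omega

end Cfsg.Agent.Lib.Helper28.V2.SuzMC
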