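import Cfsg.Agent.Lib.Helper28.Mult.SuzMCData

set_option autoImplicit false
set_option maxRecDepth 100000

namespace Cfsg.Agent.Lib.Helper28.V2.SuzMC

open Cfsg.Agent.Lib.Helper28

theorem chk_204 : allRange D.checkLabel 71721 415 = true := by decide +kernel
theorem chk_205 : allRange D.checkLabel 72136 392 = true := by decide +kernel
theorem chk_206 : allRange D.checkLabel 72528 318 = true := by decide +kernel
theorem chk_207 : allRange D.checkLabel 72846 397 = true := by decide +kernel
theorem chk_208 : allRange D.checkLabel 73243 458 = true := by decide +kernel
theorem chk_209 : allRange D.checkLabel 73701 337 = true := by decide +kernel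
theorem chk_210 : allRange D.checkLabel 74038 388 = true := by decide +kernel
theorem chk_211 : allRange D.checkLabel 74426 415 = true := by decide +kernel
theorem chk_212 : allRange D.checkLabel 74841 408 = true := by decide +kernel
theorem chk_213 : allRange D.checkLabel 75249 420 = true := by decide +kernel
theorem chk_214 : allRange D.checkLabel 75669 404 = true := by decide +kernel
theorem chk_215 : allRange D.checkLabel 76073 395 = true := by decide +kernel
theorem chkF_17 : ∀ c, 71721 ≤ c → c < 76468 → D.checkLabel c = true := by
  intro c h1 h2
  by_cases h204 : c < 72136
  · exact allRange_iff.mp chk_204 c (by omega) (by omega)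
  by_cases h205 : c < 72528
  · exact allRange_iff.mp chk_205 c (by omega) (by omega)
  by_cases h206 : c < 72846
  · exact allRange_iff.mp chk_206 c (by omega) (by omega)
  by_cases h207 : c < 73243
  · exact allRange_iff.mp chk_207 c (by omega) (by omega)
  by_cases h208 : c < 73701
  · exact allRange_iff.mp chk_208 c (by omega) (by omega)
  by_cases h209 : c < 74038
  · exact allRange_iff.mp chk_209 c (by omega) (by omega)
  by_cases h210 : c < 74426
  · exact allRange_iff.mp chk_210 c (by omega) (by omega)
  by_cases h211 : c < 74841
  · exact allRange_iff.mp chk_211 c (by omega) (by omega)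
  by_cases h212 : c < 75249
  · exact allRange_iff.mp chk_212 c (by omega) (by omega)
  by_cases h213 : c < 75669
  · exact allRange_iff.mp chk_213 c (by omega) (by omega)
  by_cases h214 : c < 76073
  · exact allRange_iff.mp chk_214 c (by omega) (by omega)
  by_cases h215 : c < 76468
  · exact allRange_iff.mp chk_215 c (by omega) (by omega)
  omega

end Cfsg.Agent.Lib.Helper28.V2.SuzMC
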