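import Cfsg.Agent.Lib.Helper28.Mult.SuzMCData

set_option autoImplicit false
set_option maxRecDepth 100000

namespace Cfsg.Agent.Lib.Helper28.V2.SuzMC

open Cfsg.Agent.Lib.Helper28

theorem chk_216 : allRange D.checkLabel 76468 429 = true := by decide +kernel
theorem chk_217 : allRange D.checkLabel 76897 377 = true := by decide +kernel
theorem chk_218 : allRange D.checkLabel 77274 444 = true := by decide +kernel
theorem chk_219 : allRange D.checkLabel 77718 368 = true := by decide +kernel
theorem chk_220 : allRange D.checkLabel 78086 328 = true := by decide +kernel
theorem chk_221 : allRange D.checkLabel 78414 418 = true := by decide +kernel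
theorem chk_222 : allRange D.checkLabel 78832 385 = true := by decide +kernel
theorem chk_223 : allRange D.checkLabel 79217 471 = true := by decide +kernel
theorem chk_224 : allRange D.checkLabel 79688 387 = true := by decide +kernel
theorem chk_225 : allRange D.checkLabel 80075 358 = true := by decide +kernel
theorem chk_226 : allRange D.checkLabel 80433 435 = true := by decide +kernel
theorem chk_227 : allRange D.checkLabel 80868 293 = true := by decide +kernel
theorem chkF_18 : ∀ c, 76468 ≤ c → c < 81161 → D.checkLabel c = true := by
  intro c h1 h2
  by_cases h216 : c < 76897
  · exact allRange_iff.mp chk_216 c (by omega) (by omega)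
  by_cases h217 : c < 77274
  · exact allRange_iff.mp chk_217 c (by omega) (by omega)
  by_cases h218 : c < 77718
  · exact allRange_iff.mp chk_218 c (by omega) (by omega)
  by_cases h219 : c < 78086
  · exact allRange_iff.mp chk_219 c (by omega) (by omega)
  by_cases h220 : c < 78414
  · exact allRange_iff.mp chk_220 c (by omega) (by omega)
  by_cases h221 : c < 78832
  · exact allRange_iff.mp chk_221 c (by omega) (by omega)
  by_cases h222 : c < 79217
  · exact allRange_iff.mp chk_222 c (by omega) (by omega)
  by_cases h223 : c < 79688
  · exact allRange_iff.mp chk_223 c (by omega) (by omega)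
  by_cases h224 : c < 80075
  · exact allRange_iff.mp chk_224 c (by omega) (by omega)
  by_cases h225 : c < 80433
  · exact allRange_iff.mp chk_225 c (by omega) (by omega)
  by_cases h226 : c < 80868
  · exact allRange_iff.mp chk_226 c (by omega) (by omega)
  by_cases h227 : c < 81161
  · exact allRange_iff.mp chk_227 c (by omega) (by omega)
  omega

end Cfsg.Agent.Lib.Helper28.V2.SuzMC
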