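import Cfsg.Agent.Lib.Helper28.Mult.SuzMCData

set_option autoImplicit false
set_option maxRecDepth 100000

namespace Cfsg.Agent.Lib.Helper28.V2.SuzMC

open Cfsg.Agent.Lib.Helper28

theorem chk_228 : allRange D.checkLabel 81161 365 = true := by decide +kernel
theorem chk_229 : allRange D.checkLabel 81526 301 = true := by decide +kernel
theorem chk_230 : allRange D.checkLabel 81827 224 = true := by decide +kernel
theorem chk_231 : allRange D.checkLabel 82051 422 = true := by decide +kernel
theorem chk_232 : allRange D.checkLabel 82473 444 = true := by decide +kernel
theorem chk_233 : allRange D.checkLabel 82917 386 = true := by decide +kernel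
theorem chk_234 : allRange D.checkLabel 83303 380 = true := by decide +kernel
theorem chk_235 : allRange D.checkLabel 83683 379 = true := by decide +kernel
theorem chk_236 : allRange D.checkLabel 84062 396 = true := by decide +kernel
theorem chk_237 : allRange D.checkLabel 84458 368 = true := by decide +kernel
theorem chk_238 : allRange D.checkLabel 84826 448 = true := by decide +kernel
theorem chk_239 : allRange D.checkLabel 85274 475 = true := by decide +kernel
theorem chkF_19 : ∀ c, 81161 ≤ c → c < 85749 → D.checkLabel c = true := by
  intro c h1 h2
  by_cases h228 : c < 81526
  · exact allRange_iff.mp chk_228 c (by omega) (by omega)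
  by_cases h229 : c < 81827
  · exact allRange_iff.mp chk_229 c (by omega) (by omega)
  by_cases h230 : c < 82051
  · exact allRange_iff.mp chk_230 c (by omega) (by omega)
  by_cases h231 : c < 82473
  · exact allRange_iff.mp chk_231 c (by omega) (by omega)
  by_cases h232 : c < 82917
  · exact allRange_iff.mp chk_232 c (by omega) (by omega)
  by_cases h233 : c < 83303
  · exact allRange_iff.mp chk_233 c (by omega) (by omega)
  by_cases h234 : c < 83683
  · exact allRange_iff.mp chk_234 c (by omega) (by omega)
  by_cases h235 : c < 84062
  · exact allRange_iff.mp chk_235 c (by omega) (by omega)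
  by_cases h236 : c < 84458
  · exact allRange_iff.mp chk_236 c (by omega) (by omega)
  by_cases h237 : c < 84826
  · exact allRange_iff.mp chk_237 c (by omega) (by omega)
  by_cases h238 : c < 85274
  · exact allRange_iff.mp chk_238 c (by omega) (by omega)
  by_cases h239 : c < 85749
  · exact allRange_iff.mp chk_239 c (by omega) (by omega)
  omega

end Cfsg.Agent.Lib.Helper28.V2.SuzMC
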