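import Cfsg.Agent.Lib.Helper28.Mult.SuzMCData

set_option autoImplicit false
set_option maxRecDepth 100000

namespace Cfsg.Agent.Lib.Helper28.V2.SuzMC

open Cfsg.Agent.Lib.Helper28

theorem chk_24 : allRange D.checkLabel 5109 280 = true := by decide +kernel
theorem chk_25 : allRange D.checkLabel 5389 309 = true := by decide +kernel
theorem chk_26 : allRange D.checkLabel 5698 163 = true := by decide +kernel
theorem chk_27 : allRange D.checkLabel 5861 201 = true := by decide +kernel
theorem chk_28 : allRange D.checkLabel 6062 231 = true := by decide +kernel
theorem chk_29 : allRange D.checkLabel 6293 226 = true := by decide +kernel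
theorem chk_30 : allRange D.checkLabel 6519 201 = true := by decide +kernel
theorem chk_31 : allRange D.checkLabel 6720 289 = true := by decide +kernel
theorem chk_32 : allRange D.checkLabel 7009 295 = true := by decide +kernel
theorem chk_33 : allRange D.checkLabel 7304 320 = true := by decide +kernel
theorem chk_34 : allRange D.checkLabel 7624 219 = true := by decide +kernel
theorem chk_35 : allRange D.checkLabel 7843 181 = true := by decide +kernel
theorem chkF_2 : ∀ c, 5109 ≤ c → c < 8024 → D.checkLabel c = true := by
  intro c h1 h2
  by_cases h24 : c < 5389
  · exact allRange_iff.mp chk_24 c (by omega) (by omega)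
  by_cases h25 : c < 5698
  · exact allRange_iff.mp chk_25 c (by omega) (by omega)
  by_cases h26 : c < 5861
  · exact allRange_iff.mp chk_26 c (by omega) (by omega)
  by_cases h27 : c < 6062
  · exact allRange_iff.mp chk_27 c (by omega) (by omega)
  by_cases h28 : c < 6293
  · exact allRange_iff.mp chk_28 c (by omega) (by omega)
  by_cases h29 : c < 6519
  · exact allRange_iff.mp chk_29 c (by omega) (by omega)
  by_cases h30 : c < 6720
  · exact allRange_iff.mp chk_30 c (by omega) (by omega)
  by_cases h31 : c < 7009
  · exact allRange_iff.mp chk_31 c (by omega) (by omega)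
  by_cases h32 : c < 7304
  · exact allRange_iff.mp chk_32 c (by omega) (by omega)
  by_cases h33 : c < 7624
  · exact allRange_iff.mp chk_33 c (by omega) (by omega)
  by_cases h34 : c < 7843
  · exact allRange_iff.mp chk_34 c (by omega) (by omega)
  by_cases h35 : c < 8024
  · exact allRange_iff.mp chk_35 c (by omega) (by omega)
  omega

end Cfsg.Agent.Lib.Helper28.V2.SuzMC
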