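import Cfsg.Agent.Lib.Helper28.Mult.SuzMCData

set_option autoImplicit false
set_option maxRecDepth 100000

namespace Cfsg.Agent.Lib.Helper28.V2.SuzMC

open Cfsg.Agent.Lib.Helper28

theorem chk_240 : allRange D.checkLabel 85749 400 = true := by decide +kernel
theorem chk_241 : allRange D.checkLabel 86149 363 = true := by decide +kernel
theorem chk_242 : allRange D.checkLabel 86512 281 = true := by decide +kernel
theorem chk_243 : allRange D.checkLabel 86793 420 = true := by decide +kernel
theorem chk_244 : allRange D.checkLabel 87213 303 = true := by decide +kernel
theorem chk_245 : allRange D.checkLabel 87516 539 = true := by decide +kernel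
theorem chk_246 : allRange D.checkLabel 88055 408 = true := by decide +kernel
theorem chk_247 : allRange D.checkLabel 88463 316 = true := by decide +kernel
theorem chk_248 : allRange D.checkLabel 88779 322 = true := by decide +kernel
theorem chk_249 : allRange D.checkLabel 89101 392 = true := by decide +kernel
theorem chk_250 : allRange D.checkLabel 89493 353 = true := by decide +kernel
theorem chk_251 : allRange D.checkLabel 89846 399 = true := by decide +kernel
theorem chkF_20 : ∀ c, 85749 ≤ c → c < 90245 → D.checkLabel c = true := by
  intro c h1 h2
  by_cases h240 : c < 86149
  · exact allRange_iff.mp chk_240 c (by omega) (by omega)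
  by_cases h241 : c < 86512
  · exact allRange_iff.mp chk_241 c (by omega) (by omega)
  by_cases h242 : c < 86793
  · exact allRange_iff.mp chk_242 c (by omega) (by omega)
  by_cases h243 : c < 87213
  · exact allRange_iff.mp chk_243 c (by omega) (by omega)
  by_cases h244 : c < 87516
  · exact allRange_iff.mp chk_244 c (by omega) (by omega)
  by_cases h245 : c < 88055
  · exact allRange_iff.mp chk_245 c (by omega) (by omega)
  by_cases h246 : c < 88463
  · exact allRange_iff.mp chk_246 c (by omega) (by omega)
  by_cases h247 : c < 88779
  · exact allRange_iff.mp chk_247 c (by omega) (by omega)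
  by_cases h248 : c < 89101
  · exact allRange_iff.mp chk_248 c (by omega) (by omega)
  by_cases h249 : c < 89493
  · exact allRange_iff.mp chk_249 c (by omega) (by omega)
  by_cases h250 : c < 89846
  · exact allRange_iff.mp chk_250 c (by omega) (by omega)
  by_cases h251 : c < 90245
  · exact allRange_iff.mp chk_251 c (by omega) (by omega)
  omega

end Cfsg.Agent.Lib.Helper28.V2.SuzMC
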