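import Cfsg.Agent.Lib.Helper28.Mult.SuzMCData

set_option autoImplicit false
set_option maxRecDepth 100000

namespace Cfsg.Agent.Lib.Helper28.V2.SuzMC

open Cfsg.Agent.Lib.Helper28

theorem chk_252 : allRange D.checkLabel 90245 383 = true := by decide +kernel
theorem chk_253 : allRange D.checkLabel 90628 490 = true := by decide +kernel
theorem chk_254 : allRange D.checkLabel 91118 269 = true := by decide +kernel
theorem chk_255 : allRange D.checkLabel 91387 485 = true := by decide +kernel
theorem chk_256 : allRange D.checkLabel 91872 526 = true := by decide +kernel
theorem chk_257 : allRange D.checkLabel 92398 413 = true := by decide +kernel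
theorem chk_258 : allRange D.checkLabel 92811 414 = true := by decide +kernel
theorem chk_259 : allRange D.checkLabel 93225 558 = true := by decide +kernel
theorem chk_260 : allRange D.checkLabel 93783 489 = true := by decide +kernel
theorem chk_261 : allRange D.checkLabel 94272 382 = true := by decide +kernel
theorem chk_262 : allRange D.checkLabel 94654 681 = true := by decide +kernel
theorem chk_263 : allRange D.checkLabel 95335 380 = true := by decide +kernel
theorem chkF_21 : ∀ c, 90245 ≤ c → c < 95715 → D.checkLabel c = true := by
  intro c h1 h2
  by_cases h252 : c < 90628
  · exact allRange_iff.mp chk_252 c (by omega) (by omega)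
  by_cases h253 : c < 91118
  · exact allRange_iff.mp chk_253 c (by omega) (by omega)
  by_cases h254 : c < 91387
  · exact allRange_iff.mp chk_254 c (by omega) (by omega)
  by_cases h255 : c < 91872
  · exact allRange_iff.mp chk_255 c (by omega) (by omega)
  by_cases h256 : c < 92398
  · exact allRange_iff.mp chk_256 c (by omega) (by omega)
  by_cases h257 : c < 92811
  · exact allRange_iff.mp chk_257 c (by omega) (by omega)
  by_cases h258 : c < 93225
  · exact allRange_iff.mp chk_258 c (by omega) (by omega)
  by_cases h259 : c < 93783
  · exact allRange_iff.mp chk_259 c (by omega) (by omega)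
  by_cases h260 : c < 94272
  · exact allRange_iff.mp chk_260 c (by omega) (by omega)
  by_cases h261 : c < 94654
  · exact allRange_iff.mp chk_261 c (by omega) (by omega)
  by_cases h262 : c < 95335
  · exact allRange_iff.mp chk_262 c (by omega) (by omega)
  by_cases h263 : c < 95715
  · exact allRange_iff.mp chk_263 c (by omega) (by omega)
  omega

end Cfsg.Agent.Lib.Helper28.V2.SuzMC
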