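import Cfsg.Agent.Lib.Helper28.Mult.SuzMCData

set_option autoImplicit false
set_option maxRecDepth 100000

namespace Cfsg.Agent.Lib.Helper28.V2.SuzMC

open Cfsg.Agent.Lib.Helper28

theorem chk_276 : allRange D.checkLabel 101344 525 = true := by decide +kernel
theorem chk_277 : allRange D.checkLabel 101869 446 = true := by decide +kernel
theorem chk_278 : allRange D.checkLabel 102315 564 = true := by decide +kernel
theorem chk_279 : allRange D.checkLabel 102879 587 = true := by decide +kernel
theorem chk_280 : allRange D.checkLabel 103466 667 = true := by decide +kernel
theorem chk_281 : allRange D.checkLabel 104133 671 = true := by decide +kernel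
theorem chk_282 : allRange D.checkLabel 104804 812 = true := by decide +kernel
theorem chk_283 : allRange D.checkLabel 105616 851 = true := by decide +kernel
theorem chk_284 : allRange D.checkLabel 106467 632 = true := by decide +kernel
theorem chk_285 : allRange D.checkLabel 107099 732 = true := by decide +kernel
theorem chk_286 : allRange D.checkLabel 107831 818 = true := by decide +kernel
theorem chk_287 : allRange D.checkLabel 108649 732 = true := by decide +kernel
theorem chkF_23 : ∀ c, 101344 ≤ c → c < 109381 → D.checkLabel c = true := by
  intro c h1 h2
  by_cases h276 : c < 101869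
  · exact allRange_iff.mp chk_276 c (by omega) (by omega)
  by_cases h277 : c < 102315
  · exact allRange_iff.mp chk_277 c (by omega) (by omega)
  by_cases h278 : c < 102879
  · exact allRange_iff.mp chk_278 c (by omega) (by omega)
  by_cases h279 : c < 103466
  · exact allRange_iff.mp chk_279 c (by omega) (by omega)
  by_cases h280 : c < 104133
  · exact allRange_iff.mp chk_280 c (by omega) (by omega)
  by_cases h281 : c < 104804
  · exact allRange_iff.mp chk_281 c (by omega) (by omega)
  by_cases h282 : c < 105616
  · exact allRange_iff.mp chk_282 c (by omega) (by omega)
  by_cases h283 : c < 106467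
  · exact allRange_iff.mp chk_283 c (by omega) (by omega)
  by_cases h284 : c < 107099
  · exact allRange_iff.mp chk_284 c (by omega) (by omega)
  by_cases h285 : c < 107831
  · exact allRange_iff.mp chk_285 c (by omega) (by omega)
  by_cases h286 : c < 108649
  · exact allRange_iff.mp chk_286 c (by omega) (by omega)
  by_cases h287 : c < 109381
  · exact allRange_iff.mp chk_287 c (by omega) (by omega)
  omega

end Cfsg.Agent.Lib.Helper28.V2.SuzMC
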