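import Cfsg.Agent.Lib.Helper28.Mult.SuzMCData

set_option autoImplicit false
set_option maxRecDepth 100000

namespace Cfsg.Agent.Lib.Helper28.V2.SuzMC

open Cfsg.Agent.Lib.Helper28

theorem chk_288 : allRange D.checkLabel 109381 688 = true := by decide +kernel
theorem chk_289 : allRange D.checkLabel 110069 572 = true := by decide +kernel
theorem chk_290 : allRange D.checkLabel 110641 620 = true := by decide +kernel
theorem chk_291 : allRange D.checkLabel 111261 534 = true := by decide +kernel
theorem chk_292 : allRange D.checkLabel 111795 611 = true := by decide +kernel
theorem chk_293 : allRange D.checkLabel 112406 609 = true := by decide +kernel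
theorem chk_294 : allRange D.checkLabel 113015 552 = true := by decide +kernel
theorem chk_295 : allRange D.checkLabel 113567 517 = true := by decide +kernel
theorem chk_296 : allRange D.checkLabel 114084 707 = true := by decide +kernel
theorem chk_297 : allRange D.checkLabel 114791 518 = true := by decide +kernel
theorem chk_298 : allRange D.checkLabel 115309 602 = true := by decide +kernel
theorem chk_299 : allRange D.checkLabel 115911 552 = true := by decide +kernel
theorem chkF_24 : ∀ c, 109381 ≤ c → c < 116463 → D.checkLabel c = true := by
  intro c h1 h2
  by_cases h288 : c < 110069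
  · exact allRange_iff.mp chk_288 c (by omega) (by omega)
  by_cases h289 : c < 110641
  · exact allRange_iff.mp chk_289 c (by omega) (by omega)
  by_cases h290 : c < 111261
  · exact allRange_iff.mp chk_290 c (by omega) (by omega)
  by_cases h291 : c < 111795
  · exact allRange_iff.mp chk_291 c (by omega) (by omega)
  by_cases h292 : c < 112406
  · exact allRange_iff.mp chk_292 c (by omega) (by omega)
  by_cases h293 : c < 113015
  · exact allRange_iff.mp chk_293 c (by omega) (by omega)
  by_cases h294 : c < 113567
  · exact allRange_iff.mp chk_294 c (by omega) (by omega)
  by_cases h295 : c < 114084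
  · exact allRange_iff.mp chk_295 c (by omega) (by omega)
  by_cases h296 : c < 114791
  · exact allRange_iff.mp chk_296 c (by omega) (by omega)
  by_cases h297 : c < 115309
  · exact allRange_iff.mp chk_297 c (by omega) (by omega)
  by_cases h298 : c < 115911
  · exact allRange_iff.mp chk_298 c (by omega) (by omega)
  by_cases h299 : c < 116463
  · exact allRange_iff.mp chk_299 c (by omega) (by omega)
  omega

end Cfsg.Agent.Lib.Helper28.V2.SuzMC
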