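import Cfsg.Agent.Lib.Helper28.Mult.SuzMCData

set_option autoImplicit false
set_option maxRecDepth 100000

namespace Cfsg.Agent.Lib.Helper28.V2.SuzMC

open Cfsg.Agent.Lib.Helper28

theorem chk_300 : allRange D.checkLabel 116463 412 = true := by decide +kernel
theorem chk_301 : allRange D.checkLabel 116875 485 = true := by decide +kernel
theorem chk_302 : allRange D.checkLabel 117360 616 = true := by decide +kernel
theorem chk_303 : allRange D.checkLabel 117976 516 = true := by decide +kernel
theorem chk_304 : allRange D.checkLabel 118492 463 = true := by decide +kernel
theorem chk_305 : allRange D.checkLabel 118955 612 = true := by decide +kernel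
theorem chk_306 : allRange D.checkLabel 119567 506 = true := by decide +kernel
theorem chk_307 : allRange D.checkLabel 120073 450 = true := by decide +kernel
theorem chk_308 : allRange D.checkLabel 120523 592 = true := by decide +kernel
theorem chk_309 : allRange D.checkLabel 121115 520 = true := by decide +kernel
theorem chk_310 : allRange D.checkLabel 121635 485 = true := by decide +kernel
theorem chk_311 : allRange D.checkLabel 122120 562 = true := by decide +kernel
theorem chkF_25 : ∀ c, 116463 ≤ c → c < 122682 → D.checkLabel c = true := by
  intro c h1 h2
  by_cases h300 : c < 116875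
  · exact allRange_iff.mp chk_300 c (by omega) (by omega)
  by_cases h301 : c < 117360
  · exact allRange_iff.mp chk_301 c (by omega) (by omega)
  by_cases h302 : c < 117976
  · exact allRange_iff.mp chk_302 c (by omega) (by omega)
  by_cases h303 : c < 118492
  · exact allRange_iff.mp chk_303 c (by omega) (by omega)
  by_cases h304 : c < 118955
  · exact allRange_iff.mp chk_304 c (by omega) (by omega)
  by_cases h305 : c < 119567
  · exact allRange_iff.mp chk_305 c (by omega) (by omega)
  by_cases h306 : c < 120073
  · exact allRange_iff.mp chk_306 c (by omega) (by omega)
  by_cases h307 : c < 120523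
  · exact allRange_iff.mp chk_307 c (by omega) (by omega)
  by_cases h308 : c < 121115
  · exact allRange_iff.mp chk_308 c (by omega) (by omega)
  by_cases h309 : c < 121635
  · exact allRange_iff.mp chk_309 c (by omega) (by omega)
  by_cases h310 : c < 122120
  · exact allRange_iff.mp chk_310 c (by omega) (by omega)
  by_cases h311 : c < 122682
  · exact allRange_iff.mp chk_311 c (by omega) (by omega)
  omega

end Cfsg.Agent.Lib.Helper28.V2.SuzMC
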