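import Cfsg.Agent.Lib.Helper28.Mult.SuzMCData

set_option autoImplicit false
set_option maxRecDepth 100000

namespace Cfsg.Agent.Lib.Helper28.V2.SuzMC

open Cfsg.Agent.Lib.Helper28

theorem chk_312 : allRange D.checkLabel 122682 476 = true := by decide +kernel
theorem chk_313 : allRange D.checkLabel 123158 581 = true := by decide +kernel
theorem chk_314 : allRange D.checkLabel 123739 803 = true := by decide +kernel
theorem chk_315 : allRange D.checkLabel 124542 689 = true := by decide +kernel
theorem chk_316 : allRange D.checkLabel 125231 544 = true := by decide +kernel
theorem chk_317 : allRange D.checkLabel 125775 537 = true := by decide +kernel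
theorem chk_318 : allRange D.checkLabel 126312 600 = true := by decide +kernel
theorem chk_319 : allRange D.checkLabel 126912 551 = true := by decide +kernel
theorem chk_320 : allRange D.checkLabel 127463 923 = true := by decide +kernel
theorem chk_321 : allRange D.checkLabel 128386 923 = true := by decide +kernel
theorem chk_322 : allRange D.checkLabel 129309 693 = true := by decide +kernel
theorem chk_323 : allRange D.checkLabel 130002 295 = true := by decide +kernel
theorem chkF_26 : ∀ c, 122682 ≤ c → c < 130297 → D.checkLabel c = true := by
  intro c h1 h2
  by_cases h312 : c < 123158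
  · exact allRange_iff.mp chk_312 c (by omega) (by omega)
  by_cases h313 : c < 123739
  · exact allRange_iff.mp chk_313 c (by omega) (by omega)
  by_cases h314 : c < 124542
  · exact allRange_iff.mp chk_314 c (by omega) (by omega)
  by_cases h315 : c < 125231
  · exact allRange_iff.mp chk_315 c (by omega) (by omega)
  by_cases h316 : c < 125775
  · exact allRange_iff.mp chk_316 c (by omega) (by omega)
  by_cases h317 : c < 126312
  · exact allRange_iff.mp chk_317 c (by omega) (by omega)
  by_cases h318 : c < 126912
  · exact allRange_iff.mp chk_318 c (by omega) (by omega)
  by_cases h319 : c < 127463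
  · exact allRange_iff.mp chk_319 c (by omega) (by omega)
  by_cases h320 : c < 128386
  · exact allRange_iff.mp chk_320 c (by omega) (by omega)
  by_cases h321 : c < 129309
  · exact allRange_iff.mp chk_321 c (by omega) (by omega)
  by_cases h322 : c < 130002
  · exact allRange_iff.mp chk_322 c (by omega) (by omega)
  by_cases h323 : c < 130297
  · exact allRange_iff.mp chk_323 c (by omega) (by omega)
  omega

end Cfsg.Agent.Lib.Helper28.V2.SuzMC
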