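import Cfsg.Agent.Lib.Helper28.Mult.SuzMCData

set_option autoImplicit false
set_option maxRecDepth 100000

namespace Cfsg.Agent.Lib.Helper28.V2.SuzMC

open Cfsg.Agent.Lib.Helper28

theorem chk_324 : allRange D.checkLabel 130297 350 = true := by decide +kernel
theorem chk_325 : allRange D.checkLabel 130647 422 = true := by decide +kernel
theorem chk_326 : allRange D.checkLabel 131069 297 = true := by decide +kernel
theorem chk_327 : allRange D.checkLabel 131366 330 = true := by decide +kernel
theorem chk_328 : allRange D.checkLabel 131696 398 = true := by decide +kernel
theorem chk_329 : allRange D.checkLabel 132094 496 = true := by decide +kernel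
theorem chk_330 : allRange D.checkLabel 132590 514 = true := by decide +kernel
theorem chk_331 : allRange D.checkLabel 133104 570 = true := by decide +kernel
theorem chk_332 : allRange D.checkLabel 133674 433 = true := by decide +kernel
theorem chk_333 : allRange D.checkLabel 134107 589 = true := by decide +kernel
theorem chk_334 : allRange D.checkLabel 134696 798 = true := by decide +kernel
theorem chk_335 : allRange D.checkLabel 135494 269 = true := by decide +kernel
theorem chkF_27 : ∀ c, 130297 ≤ c → c < 135763 → D.checkLabel c = true := by
  intro c h1 h2
  by_cases h324 : c < 130647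
  · exact allRange_iff.mp chk_324 c (by omega) (by omega)
  by_cases h325 : c < 131069
  · exact allRange_iff.mp chk_325 c (by omega) (by omega)
  by_cases h326 : c < 131366
  · exact allRange_iff.mp chk_326 c (by omega) (by omega)
  by_cases h327 : c < 131696
  · exact allRange_iff.mp chk_327 c (by omega) (by omega)
  by_cases h328 : c < 132094
  · exact allRange_iff.mp chk_328 c (by omega) (by omega)
  by_cases h329 : c < 132590
  · exact allRange_iff.mp chk_329 c (by omega) (by omega)
  by_cases h330 : c < 133104
  · exact allRange_iff.mp chk_330 c (by omega) (by omega)
  by_cases h331 : c < 133674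
  · exact allRange_iff.mp chk_331 c (by omega) (by omega)
  by_cases h332 : c < 134107
  · exact allRange_iff.mp chk_332 c (by omega) (by omega)
  by_cases h333 : c < 134696
  · exact allRange_iff.mp chk_333 c (by omega) (by omega)
  by_cases h334 : c < 135494
  · exact allRange_iff.mp chk_334 c (by omega) (by omega)
  by_cases h335 : c < 135763
  · exact allRange_iff.mp chk_335 c (by omega) (by omega)
  omega

end Cfsg.Agent.Lib.Helper28.V2.SuzMC
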