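import Cfsg.Agent.Lib.Helper28.Mult.SuzMCData

set_option autoImplicit false
set_option maxRecDepth 100000

namespace Cfsg.Agent.Lib.Helper28.V2.SuzMC

open Cfsg.Agent.Lib.Helper28

theorem chk_36 : allRange D.checkLabel 8024 210 = true := by decide +kernel
theorem chk_37 : allRange D.checkLabel 8234 147 = true := by decide +kernel
theorem chk_38 : allRange D.checkLabel 8381 183 = true := by decide +kernel
theorem chk_39 : allRange D.checkLabel 8564 286 = true := by decide +kernel
theorem chk_40 : allRange D.checkLabel 8850 230 = true := by decide +kernel
theorem chk_41 : allRange D.checkLabel 9080 438 = true := by decide +kernel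
theorem chk_42 : allRange D.checkLabel 9518 479 = true := by decide +kernel
theorem chk_43 : allRange D.checkLabel 9997 340 = true := by decide +kernel
theorem chk_44 : allRange D.checkLabel 10337 262 = true := by decide +kernel
theorem chk_45 : allRange D.checkLabel 10599 243 = true := by decide +kernel
theorem chk_46 : allRange D.checkLabel 10842 703 = true := by decide +kernel
theorem chk_47 : allRange D.checkLabel 11545 533 = true := by decide +kernel
theorem chkF_3 : ∀ c, 8024 ≤ c → c < 12078 → D.checkLabel c = true := by
  intro c h1 h2
  by_cases h36 : c < 8234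
  · exact allRange_iff.mp chk_36 c (by omega) (by omega)
  by_cases h37 : c < 8381
  · exact allRange_iff.mp chk_37 c (by omega) (by omega)
  by_cases h38 : c < 8564
  · exact allRange_iff.mp chk_38 c (by omega) (by omega)
  by_cases h39 : c < 8850
  · exact allRange_iff.mp chk_39 c (by omega) (by omega)
  by_cases h40 : c < 9080
  · exact allRange_iff.mp chk_40 c (by omega) (by omega)
  by_cases h41 : c < 9518
  · exact allRange_iff.mp chk_41 c (by omega) (by omega)
  by_cases h42 : c < 9997
  · exact allRange_iff.mp chk_42 c (by omega) (by omega)
  by_cases h43 : c < 10337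
  · exact allRange_iff.mp chk_43 c (by omega) (by omega)
  by_cases h44 : c < 10599
  · exact allRange_iff.mp chk_44 c (by omega) (by omega)
  by_cases h45 : c < 10842
  · exact allRange_iff.mp chk_45 c (by omega) (by omega)
  by_cases h46 : c < 11545
  · exact allRange_iff.mp chk_46 c (by omega) (by omega)
  by_cases h47 : c < 12078
  · exact allRange_iff.mp chk_47 c (by omega) (by omega)
  omega

end Cfsg.Agent.Lib.Helper28.V2.SuzMC
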