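import Cfsg.Agent.Lib.Helper28.Mult.SuzMCData

set_option autoImplicit false
set_option maxRecDepth 100000

namespace Cfsg.Agent.Lib.Helper28.V2.SuzMC

open Cfsg.Agent.Lib.Helper28

theorem chk_48 : allRange D.checkLabel 12078 588 = true := by decide +kernel
theorem chk_49 : allRange D.checkLabel 12666 339 = true := by decide +kernel
theorem chk_50 : allRange D.checkLabel 13005 679 = true := by decide +kernel
theorem chk_51 : allRange D.checkLabel 13684 337 = true := by decide +kernel
theorem chk_52 : allRange D.checkLabel 14021 304 = true := by decide +kernel
theorem chk_53 : allRange D.checkLabel 14325 601 = true := by decide +kernel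
theorem chk_54 : allRange D.checkLabel 14926 559 = true := by decide +kernel
theorem chk_55 : allRange D.checkLabel 15485 518 = true := by decide +kernel
theorem chk_56 : allRange D.checkLabel 16003 732 = true := by decide +kernel
theorem chk_57 : allRange D.checkLabel 16735 570 = true := by decide +kernel
theorem chk_58 : allRange D.checkLabel 17305 241 = true := by decide +kernel
theorem chk_59 : allRange D.checkLabel 17546 655 = true := by decide +kernel
theorem chkF_4 : ∀ c, 12078 ≤ c → c < 18201 → D.checkLabel c = true := by
  intro c h1 h2
  by_cases h48 : c < 12666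
  · exact allRange_iff.mp chk_48 c (by omega) (by omega)
  by_cases h49 : c < 13005
  · exact allRange_iff.mp chk_49 c (by omega) (by omega)
  by_cases h50 : c < 13684
  · exact allRange_iff.mp chk_50 c (by omega) (by omega)
  by_cases h51 : c < 14021
  · exact allRange_iff.mp chk_51 c (by omega) (by omega)
  by_cases h52 : c < 14325
  · exact allRange_iff.mp chk_52 c (by omega) (by omega)
  by_cases h53 : c < 14926
  · exact allRange_iff.mp chk_53 c (by omega) (by omega)
  by_cases h54 : c < 15485
  · exact allRange_iff.mp chk_54 c (by omega) (by omega)
  by_cases h55 : c < 16003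
  · exact allRange_iff.mp chk_55 c (by omega) (by omega)
  by_cases h56 : c < 16735
  · exact allRange_iff.mp chk_56 c (by omega) (by omega)
  by_cases h57 : c < 17305
  · exact allRange_iff.mp chk_57 c (by omega) (by omega)
  by_cases h58 : c < 17546
  · exact allRange_iff.mp chk_58 c (by omega) (by omega)
  by_cases h59 : c < 18201
  · exact allRange_iff.mp chk_59 c (by omega) (by omega)
  omega

end Cfsg.Agent.Lib.Helper28.V2.SuzMC
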