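import Cfsg.Agent.Lib.Helper28.Mult.SuzMCData

set_option autoImplicit false
set_option maxRecDepth 100000

namespace Cfsg.Agent.Lib.Helper28.V2.SuzMC

open Cfsg.Agent.Lib.Helper28

theorem chk_60 : allRange D.checkLabel 18201 442 = true := by decide +kernel
theorem chk_61 : allRange D.checkLabel 18643 255 = true := by decide +kernel
theorem chk_62 : allRange D.checkLabel 18898 205 = true := by decide +kernel
theorem chk_63 : allRange D.checkLabel 19103 275 = true := by decide +kernel
theorem chk_64 : allRange D.checkLabel 19378 253 = true := by decide +kernel
theorem chk_65 : allRange D.checkLabel 19631 324 = true := by decide +kernel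
theorem chk_66 : allRange D.checkLabel 19955 442 = true := by decide +kernel
theorem chk_67 : allRange D.checkLabel 20397 297 = true := by decide +kernel
theorem chk_68 : allRange D.checkLabel 20694 401 = true := by decide +kernel
theorem chk_69 : allRange D.checkLabel 21095 443 = true := by decide +kernel
theorem chk_70 : allRange D.checkLabel 21538 505 = true := by decide +kernel
theorem chk_71 : allRange D.checkLabel 22043 278 = true := by decide +kernel
theorem chkF_5 : ∀ c, 18201 ≤ c → c < 22321 → D.checkLabel c = true := by
  intro c h1 h2
  by_cases h60 : c < 18643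
  · exact allRange_iff.mp chk_60 c (by omega) (by omega)
  by_cases h61 : c < 18898
  · exact allRange_iff.mp chk_61 c (by omega) (by omega)
  by_cases h62 : c < 19103
  · exact allRange_iff.mp chk_62 c (by omega) (by omega)
  by_cases h63 : c < 19378
  · exact allRange_iff.mp chk_63 c (by omega) (by omega)
  by_cases h64 : c < 19631
  · exact allRange_iff.mp chk_64 c (by omega) (by omega)
  by_cases h65 : c < 19955
  · exact allRange_iff.mp chk_65 c (by omega) (by omega)
  by_cases h66 : c < 20397
  · exact allRange_iff.mp chk_66 c (by omega) (by omega)
  by_cases h67 : c < 20694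
  · exact allRange_iff.mp chk_67 c (by omega) (by omega)
  by_cases h68 : c < 21095
  · exact allRange_iff.mp chk_68 c (by omega) (by omega)
  by_cases h69 : c < 21538
  · exact allRange_iff.mp chk_69 c (by omega) (by omega)
  by_cases h70 : c < 22043
  · exact allRange_iff.mp chk_70 c (by omega) (by omega)
  by_cases h71 : c < 22321
  · exact allRange_iff.mp chk_71 c (by omega) (by omega)
  omega

end Cfsg.Agent.Lib.Helper28.V2.SuzMC
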