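import Cfsg.Agent.Lib.Helper28.Mult.SuzMCData

set_option autoImplicit false
set_option maxRecDepth 100000

namespace Cfsg.Agent.Lib.Helper28.V2.SuzMC

open Cfsg.Agent.Lib.Helper28

theorem chk_72 : allRange D.checkLabel 22321 211 = true := by decide +kernel
theorem chk_73 : allRange D.checkLabel 22532 270 = true := by decide +kernel
theorem chk_74 : allRange D.checkLabel 22802 254 = true := by decide +kernel
theorem chk_75 : allRange D.checkLabel 23056 208 = true := by decide +kernel
theorem chk_76 : allRange D.checkLabel 23264 225 = true := by decide +kernel
theorem chk_77 : allRange D.checkLabel 23489 251 = true := by decide +kernel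
theorem chk_78 : allRange D.checkLabel 23740 232 = true := by decide +kernel
theorem chk_79 : allRange D.checkLabel 23972 306 = true := by decide +kernel
theorem chk_80 : allRange D.checkLabel 24278 295 = true := by decide +kernel
theorem chk_81 : allRange D.checkLabel 24573 321 = true := by decide +kernel
theorem chk_82 : allRange D.checkLabel 24894 348 = true := by decide +kernel
theorem chk_83 : allRange D.checkLabel 25242 486 = true := by decide +kernel
theorem chkF_6 : ∀ c, 22321 ≤ c → c < 25728 → D.checkLabel c = true := by
  intro c h1 h2
  by_cases h72 : c < 22532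
  · exact allRange_iff.mp chk_72 c (by omega) (by omega)
  by_cases h73 : c < 22802
  · exact allRange_iff.mp chk_73 c (by omega) (by omega)
  by_cases h74 : c < 23056
  · exact allRange_iff.mp chk_74 c (by omega) (by omega)
  by_cases h75 : c < 23264
  · exact allRange_iff.mp chk_75 c (by omega) (by omega)
  by_cases h76 : c < 23489
  · exact allRange_iff.mp chk_76 c (by omega) (by omega)
  by_cases h77 : c < 23740
  · exact allRange_iff.mp chk_77 c (by omega) (by omega)
  by_cases h78 : c < 23972
  · exact allRange_iff.mp chk_78 c (by omega) (by omega)
  by_cases h79 : c < 24278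
  · exact allRange_iff.mp chk_79 c (by omega) (by omega)
  by_cases h80 : c < 24573
  · exact allRange_iff.mp chk_80 c (by omega) (by omega)
  by_cases h81 : c < 24894
  · exact allRange_iff.mp chk_81 c (by omega) (by omega)
  by_cases h82 : c < 25242
  · exact allRange_iff.mp chk_82 c (by omega) (by omega)
  by_cases h83 : c < 25728
  · exact allRange_iff.mp chk_83 c (by omega) (by omega)
  omega

end Cfsg.Agent.Lib.Helper28.V2.SuzMC
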