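import Cfsg.Agent.Lib.Helper28.Mult.SuzMCData

set_option autoImplicit false
set_option maxRecDepth 100000

namespace Cfsg.Agent.Lib.Helper28.V2.SuzMC

open Cfsg.Agent.Lib.Helper28

theorem chk_84 : allRange D.checkLabel 25728 553 = true := by decide +kernel
theorem chk_85 : allRange D.checkLabel 26281 312 = true := by decide +kernel
theorem chk_86 : allRange D.checkLabel 26593 272 = true := by decide +kernel
theorem chk_87 : allRange D.checkLabel 26865 201 = true := by decide +kernel
theorem chk_88 : allRange D.checkLabel 27066 206 = true := by decide +kernel
theorem chk_89 : allRange D.checkLabel 27272 235 = true := by decide +kernel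
theorem chk_90 : allRange D.checkLabel 27507 229 = true := by decide +kernel
theorem chk_91 : allRange D.checkLabel 27736 169 = true := by decide +kernel
theorem chk_92 : allRange D.checkLabel 27905 236 = true := by decide +kernel
theorem chk_93 : allRange D.checkLabel 28141 232 = true := by decide +kernel
theorem chk_94 : allRange D.checkLabel 28373 219 = true := by decide +kernel
theorem chk_95 : allRange D.checkLabel 28592 233 = true := by decide +kernel
theorem chkF_7 : ∀ c, 25728 ≤ c → c < 28825 → D.checkLabel c = true := by
  intro c h1 h2
  by_cases h84 : c < 26281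
  · exact allRange_iff.mp chk_84 c (by omega) (by omega)
  by_cases h85 : c < 26593
  · exact allRange_iff.mp chk_85 c (by omega) (by omega)
  by_cases h86 : c < 26865
  · exact allRange_iff.mp chk_86 c (by omega) (by omega)
  by_cases h87 : c < 27066
  · exact allRange_iff.mp chk_87 c (by omega) (by omega)
  by_cases h88 : c < 27272
  · exact allRange_iff.mp chk_88 c (by omega) (by omega)
  by_cases h89 : c < 27507
  · exact allRange_iff.mp chk_89 c (by omega) (by omega)
  by_cases h90 : c < 27736
  · exact allRange_iff.mp chk_90 c (by omega) (by omega)
  by_cases h91 : c < 27905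
  · exact allRange_iff.mp chk_91 c (by omega) (by omega)
  by_cases h92 : c < 28141
  · exact allRange_iff.mp chk_92 c (by omega) (by omega)
  by_cases h93 : c < 28373
  · exact allRange_iff.mp chk_93 c (by omega) (by omega)
  by_cases h94 : c < 28592
  · exact allRange_iff.mp chk_94 c (by omega) (by omega)
  by_cases h95 : c < 28825
  · exact allRange_iff.mp chk_95 c (by omega) (by omega)
  omega

end Cfsg.Agent.Lib.Helper28.V2.SuzMC
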