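import Cfsg.Agent.Lib.Helper28.Mult.SuzMCData

set_option autoImplicit false
set_option maxRecDepth 100000

namespace Cfsg.Agent.Lib.Helper28.V2.SuzMC

open Cfsg.Agent.Lib.Helper28

theorem chk_96 : allRange D.checkLabel 28825 328 = true := by decide +kernel
theorem chk_97 : allRange D.checkLabel 29153 293 = true := by decide +kernel
theorem chk_98 : allRange D.checkLabel 29446 370 = true := by decide +kernel
theorem chk_99 : allRange D.checkLabel 29816 377 = true := by decide +kernel
theorem chk_100 : allRange D.checkLabel 30193 453 = true := by decide +kernel
theorem chk_101 : allRange D.checkLabel 30646 438 = true := by decide +kernel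
theorem chk_102 : allRange D.checkLabel 31084 424 = true := by decide +kernel
theorem chk_103 : allRange D.checkLabel 31508 471 = true := by decide +kernel
theorem chk_104 : allRange D.checkLabel 31979 725 = true := by decide +kernel
theorem chk_105 : allRange D.checkLabel 32704 958 = true := by decide +kernel
theorem chk_106 : allRange D.checkLabel 33662 833 = true := by decide +kernel
theorem chk_107 : allRange D.checkLabel 34495 490 = true := by decide +kernel
theorem chkF_8 : ∀ c, 28825 ≤ c → c < 34985 → D.checkLabel c = true := by
  intro c h1 h2
  by_cases h96 : c < 29153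
  · exact allRange_iff.mp chk_96 c (by omega) (by omega)
  by_cases h97 : c < 29446
  · exact allRange_iff.mp chk_97 c (by omega) (by omega)
  by_cases h98 : c < 29816
  · exact allRange_iff.mp chk_98 c (by omega) (by omega)
  by_cases h99 : c < 30193
  · exact allRange_iff.mp chk_99 c (by omega) (by omega)
  by_cases h100 : c < 30646
  · exact allRange_iff.mp chk_100 c (by omega) (by omega)
  by_cases h101 : c < 31084
  · exact allRange_iff.mp chk_101 c (by omega) (by omega)
  by_cases h102 : c < 31508
  · exact allRange_iff.mp chk_102 c (by omega) (by omega)
  by_cases h103 : c < 31979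
  · exact allRange_iff.mp chk_103 c (by omega) (by omega)
  by_cases h104 : c < 32704
  · exact allRange_iff.mp chk_104 c (by omega) (by omega)
  by_cases h105 : c < 33662
  · exact allRange_iff.mp chk_105 c (by omega) (by omega)
  by_cases h106 : c < 34495
  · exact allRange_iff.mp chk_106 c (by omega) (by omega)
  by_cases h107 : c < 34985
  · exact allRange_iff.mp chk_107 c (by omega) (by omega)
  omega

end Cfsg.Agent.Lib.Helper28.V2.SuzMC
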