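import Cfsg.Agent.Lib.Helper28.Mult.SuzMCData

set_option autoImplicit false
set_option maxRecDepth 100000

namespace Cfsg.Agent.Lib.Helper28.V2.SuzMC

open Cfsg.Agent.Lib.Helper28

theorem chk_108 : allRange D.checkLabel 34985 345 = true := by decide +kernel
theorem chk_109 : allRange D.checkLabel 35330 353 = true := by decide +kernel
theorem chk_110 : allRange D.checkLabel 35683 429 = true := by decide +kernel
theorem chk_111 : allRange D.checkLabel 36112 480 = true := by decide +kernel
theorem chk_112 : allRange D.checkLabel 36592 367 = true := by decide +kernel
theorem chk_113 : allRange D.checkLabel 36959 349 = true := by decide +kernel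
theorem chk_114 : allRange D.checkLabel 37308 299 = true := by decide +kernel
theorem chk_115 : allRange D.checkLabel 37607 220 = true := by decide +kernel
theorem chk_116 : allRange D.checkLabel 37827 221 = true := by decide +kernel
theorem chk_117 : allRange D.checkLabel 38048 334 = true := by decide +kernel
theorem chk_118 : allRange D.checkLabel 38382 314 = true := by decide +kernel
theorem chk_119 : allRange D.checkLabel 38696 312 = true := by decide +kernel
theorem chkF_9 : ∀ c, 34985 ≤ c → c < 39008 → D.checkLabel c = true := by
  intro c h1 h2
  by_cases h108 : c < 35330
  · exact allRange_iff.mp chk_108 c (by omega) (by omega)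
  by_cases h109 : c < 35683
  · exact allRange_iff.mp chk_109 c (by omega) (by omega)
  by_cases h110 : c < 36112
  · exact allRange_iff.mp chk_110 c (by omega) (by omega)
  by_cases h111 : c < 36592
  · exact allRange_iff.mp chk_111 c (by omega) (by omega)
  by_cases h112 : c < 36959
  · exact allRange_iff.mp chk_112 c (by omega) (by omega)
  by_cases h113 : c < 37308
  · exact allRange_iff.mp chk_113 c (by omega) (by omega)
  by_cases h114 : c < 37607
  · exact allRange_iff.mp chk_114 c (by omega) (by omega)
  by_cases h115 : c < 37827
  · exact allRange_iff.mp chk_115 c (by omega) (by omega)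
  by_cases h116 : c < 38048
  · exact allRange_iff.mp chk_116 c (by omega) (by omega)
  by_cases h117 : c < 38382
  · exact allRange_iff.mp chk_117 c (by omega) (by omega)
  by_cases h118 : c < 38696
  · exact allRange_iff.mp chk_118 c (by omega) (by omega)
  by_cases h119 : c < 39008
  · exact allRange_iff.mp chk_119 c (by omega) (by omega)
  omega

end Cfsg.Agent.Lib.Helper28.V2.SuzMC
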