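import Cfsg.Agent.Lib.Helper28.Mult.SuzMCC0
import Cfsg.Agent.Lib.Helper28.Mult.SuzMCC1
import Cfsg.Agent.Lib.Helper28.Mult.SuzMCC2
import Cfsg.Agent.Lib.Helper28.Mult.SuzMCC3
import Cfsg.Agent.Lib.Helper28.Mult.SuzMCC4
import Cfsg.Agent.Lib.Helper28.Mult.SuzMCC5
import Cfsg.Agent.Lib.Helper28.Mult.SuzMCC6
import Cfsg.Agent.Lib.Helper28.Mult.SuzMCC7
import Cfsg.Agent.Lib.Helper28.Mult.SuzMCC8
import Cfsg.Agent.Lib.Helper28.Mult.SuzMCC9
import Cfsg.Agent.Lib.Helper28.Mult.SuzMCC10
import Cfsg.Agent.Lib.Helper28.Mult.SuzMCC11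
import Cfsg.Agent.Lib.Helper28.Mult.SuzMCC12
import Cfsg.Agent.Lib.Helper28.Mult.SuzMCC13
import Cfsg.Agent.Lib.Helper28.Mult.SuzMCC14
import Cfsg.Agent.Lib.Helper28.Mult.SuzMCC15
import Cfsg.Agent.Lib.Helper28.Mult.SuzMCC16
import Cfsg.Agent.Lib.Helper28.Mult.SuzMCC17
import Cfsg.Agent.Lib.Helper28.Mult.SuzMCC18
import Cfsg.Agent.Lib.Helper28.Mult.SuzMCC19
import Cfsg.Agent.Lib.Helper28.Mult.SuzMCC20
import Cfsg.Agent.Lib.Helper28.Mult.SuzMCC21
import Cfsg.Agent.Lib.Helper28.Mult.SuzMCC22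
import Cfsg.Agent.Lib.Helper28.Mult.SuzMCC23
import Cfsg.Agent.Lib.Helper28.Mult.SuzMCC24
import Cfsg.Agent.Lib.Helper28.Mult.SuzMCC25
import Cfsg.Agent.Lib.Helper28.Mult.SuzMCC26
import Cfsg.Agent.Lib.Helper28.Mult.SuzMCC27

set_option autoImplicit false
set_option maxRecDepth 100000

namespace Cfsg.Agent.Lib.Helper28.V2.SuzMC

open Cfsg.Agent.Lib.Helper28

theorem check_all : ∀ c < D.m, D.checkLabel c = true := by
  intro c hc
  have hc' : c < 135763 := hc
  by_cases h0 : c < 1751
  · exact chkF_0 c (by omega) (by omega)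
  by_cases h1 : c < 5109
  · exact chkF_1 c (by omega) (by omega)
  by_cases h2 : c < 8024
  · exact chkF_2 c (by omega) (by omega)
  by_cases h3 : c < 12078
  · exact chkF_3 c (by omega) (by omega)
  by_cases h4 : c < 18201
  · exact chkF_4 c (by omega) (by omega)
  by_cases h5 : c < 22321
  · exact chkF_5 c (by omega) (by omega)
  by_cases h6 : c < 25728
  · exact chkF_6 c (by omega) (by omega)
  by_cases h7 : c < 28825
  · exact chkF_7 c (by omega) (by omega)
  by_cases h8 : c < 34985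
  · exact chkF_8 c (by omega) (by omega)
  by_cases h9 : c < 39008
  · exact chkF_9 c (by omega) (by omega)
  by_cases h10 : c < 43655
  · exact chkF_10 c (by omega) (by omega)
  by_cases h11 : c < 47986
  · exact chkF_11 c (by omega) (by omega)
  by_cases h12 : c < 52265
  · exact chkF_12 c (by omega) (by omega)
  by_cases h13 : c < 57627
  · exact chkF_13 c (by omega) (by omega)
  by_cases h14 : c < 61953
  · exact chkF_14 c (by omega) (by omega)
  by_cases h15 : c < 66876
  · exact chkF_15 c (by omega) (by omega)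
  by_cases h16 : c < 71721
  · exact chkF_16 c (by omega) (by omega)
  by_cases h17 : c < 76468
  · exact chkF_17 c (by omega) (by omega)
  by_cases h18 : c < 81161
  · exact chkF_18 c (by omega) (by omega)
  by_cases h19 : c < 85749
  · exact chkF_19 c (by omega) (by omega)
  by_cases h20 : c < 90245
  · exact chkF_20 c (by omega) (by omega)
  by_cases h21 : c < 95715
  · exact chkF_21 c (by omega) (by omega)
  by_cases h22 : c < 101344
  · exact chkF_22 c (by omega) (by omega)
  by_cases h23 : c < 109381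
  · exact chkF_23 c (by omega) (by omega)
  by_cases h24 : c < 116463
  · exact chkF_24 c (by omega) (by omega)
  by_cases h25 : c < 122682
  · exact chkF_25 c (by omega) (by omega)
  by_cases h26 : c < 130297
  · exact chkF_26 c (by omega) (by omega)
  by_cases h27 : c < 135763
  · exact chkF_27 c (by omega) (by omega)
  omega
theorem pairs_ok : pairsC.all (pairOK (relsAll relsL invL 21) invL 20 21) = true := by decide +kernel
theorem relsK_ok : ∀ r ∈ relsAll relsL invL 21, ∀ y ∈ r, y < 21 := by decide +kernel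
theorem relsL_lt : ∀ r ∈ relsL, ∀ y ∈ r, y < 20 := by decide +kernel
theorem relsL_map : relsL.map (fun r => r.map ren) = W := by decide +kernel
theorem dpairs_ok : D.pairs = pairsC.map Prod.fst := by decide +kernel
theorem fin_all : allBelow D.finalLabel 135763 = true := by decide +kernel
theorem live_count : D.liveCount = 200 := by decide +kernel
theorem h0_ok : D.tg D.K 0 = 0 := by decide +kernel
theorem ok : Lk.OK W oinv Cfsg.Agent.Lib.Helper28.Mult.SuzM.C.K [0, 1, 2, 3, 4, 5, 6, 7, 8, 9] [14, 15, 16, 17, 18, 19] where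
  Kall := rfl
  invK := by decide +kernel
  invE := rfl
  relsIn := by
    intro r hr
    refine ⟨relsL_lt r hr, ?_⟩
    rw [← relsL_map]
    exact List.mem_map_of_mem (f := fun r => r.map ren) hr
  Dpairs := dpairs_ok
  pairs := pairs_ok
  relsK := relsK_ok
  isSub := by
    intro x hx
    have hx' : subL.contains x = true := hx
    show x ∈ subL
    simpa using hx'
  sub := by decide +kernel
  check := check_all
  gens := by decide +kernel
  hm := by decide
  h0 := h0_ok
  fin := allBelow_iff.mp fin_all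
  count := live_count

theorem card_le {Γ : Type*} [Group Γ] (g : ℕ → Γ) (hW : ∀ t, evalW (Cfsg.Agent.Lib.Helper28.Mult.SuzM.C.val g) (Cfsg.Agent.Lib.Helper28.Mult.SuzM.C.word t) = 1)
    (hB : Finite (Sg (Cfsg.Agent.Lib.Helper28.Mult.SuzM.C.val g) [14, 15, 16, 17, 18, 19])) :
    Finite (Sg (Cfsg.Agent.Lib.Helper28.Mult.SuzM.C.val g) [0, 1, 2, 3, 4, 5, 6, 7, 8, 9]) ∧
      Nat.card (Sg (Cfsg.Agent.Lib.Helper28.Mult.SuzM.C.val g) [0, 1, 2, 3, 4, 5, 6, 7, 8, 9]) ≤ 200 * Nat.card (Sg (Cfsg.Agent.Lib.Helper28.Mult.SuzM.C.val g) [14, 15, 16, 17, 18, 19]) :=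
  ok.card_le _ (by
    intro w hw
    obtain ⟨t, _, rfl⟩ := List.mem_map.mp hw
    exact hW t) (fun y _ => Cov.val_oinv g y) hB

end Cfsg.Agent.Lib.Helper28.V2.SuzMC
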