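import Cfsg.Agent.Lib.Helper28.Mult.SuzMDData

set_option autoImplicit false
set_option maxRecDepth 100000

namespace Cfsg.Agent.Lib.Helper28.V2.SuzMD

open Cfsg.Agent.Lib.Helper28

theorem chk_12 : allRange D.checkLabel 17884 1500 = true := by decide +kernel
theorem chk_13 : allRange D.checkLabel 19384 1500 = true := by decide +kernel
theorem chk_14 : allRange D.checkLabel 20884 1500 = true := by decide +kernel
theorem chk_15 : allRange D.checkLabel 22384 1500 = true := by decide +kernel
theorem chk_16 : allRange D.checkLabel 23884 1500 = true := by decide +kernel
theorem chk_17 : allRange D.checkLabel 25384 1500 = true := by decide +kernel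
theorem chk_18 : allRange D.checkLabel 26884 1500 = true := by decide +kernel
theorem chk_19 : allRange D.checkLabel 28384 1500 = true := by decide +kernel
theorem chk_20 : allRange D.checkLabel 29884 1500 = true := by decide +kernel
theorem chk_21 : allRange D.checkLabel 31384 1500 = true := by decide +kernel
theorem chk_22 : allRange D.checkLabel 32884 1500 = true := by decide +kernel
theorem chk_23 : allRange D.checkLabel 34384 1500 = true := by decide +kernel
theorem chkF_1 : ∀ c, 17884 ≤ c → c < 35884 → D.checkLabel c = true := by
  intro c h1 h2
  by_cases h12 : c < 19384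
  · exact allRange_iff.mp chk_12 c (by omega) (by omega)
  by_cases h13 : c < 20884
  · exact allRange_iff.mp chk_13 c (by omega) (by omega)
  by_cases h14 : c < 22384
  · exact allRange_iff.mp chk_14 c (by omega) (by omega)
  by_cases h15 : c < 23884
  · exact allRange_iff.mp chk_15 c (by omega) (by omega)
  by_cases h16 : c < 25384
  · exact allRange_iff.mp chk_16 c (by omega) (by omega)
  by_cases h17 : c < 26884
  · exact allRange_iff.mp chk_17 c (by omega) (by omega)
  by_cases h18 : c < 28384
  · exact allRange_iff.mp chk_18 c (by omega) (by omega)
  by_cases h19 : c < 29884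
  · exact allRange_iff.mp chk_19 c (by omega) (by omega)
  by_cases h20 : c < 31384
  · exact allRange_iff.mp chk_20 c (by omega) (by omega)
  by_cases h21 : c < 32884
  · exact allRange_iff.mp chk_21 c (by omega) (by omega)
  by_cases h22 : c < 34384
  · exact allRange_iff.mp chk_22 c (by omega) (by omega)
  by_cases h23 : c < 35884
  · exact allRange_iff.mp chk_23 c (by omega) (by omega)
  omega

end Cfsg.Agent.Lib.Helper28.V2.SuzMD
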