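import Cfsg.Agent.Lib.Helper28.Mult.SuzMDData

set_option autoImplicit false
set_option maxRecDepth 100000

namespace Cfsg.Agent.Lib.Helper28.V2.SuzMD

open Cfsg.Agent.Lib.Helper28

theorem chk_24 : allRange D.checkLabel 35884 1474 = true := by decide +kernel
theorem chk_25 : allRange D.checkLabel 37358 1262 = true := by decide +kernel
theorem chk_26 : allRange D.checkLabel 38620 1500 = true := by decide +kernel
theorem chk_27 : allRange D.checkLabel 40120 1275 = true := by decide +kernel
theorem chk_28 : allRange D.checkLabel 41395 1500 = true := by decide +kernel
theorem chk_29 : allRange D.checkLabel 42895 1345 = true := by decide +kernel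
theorem chk_30 : allRange D.checkLabel 44240 1476 = true := by decide +kernel
theorem chk_31 : allRange D.checkLabel 45716 1397 = true := by decide +kernel
theorem chk_32 : allRange D.checkLabel 47113 1432 = true := by decide +kernel
theorem chk_33 : allRange D.checkLabel 48545 1309 = true := by decide +kernel
theorem chk_34 : allRange D.checkLabel 49854 387 = true := by decide +kernel
theorem chk_35 : allRange D.checkLabel 50241 428 = true := by decide +kernel
theorem chkF_2 : ∀ c, 35884 ≤ c → c < 50669 → D.checkLabel c = true := by
  intro c h1 h2
  by_cases h24 : c < 37358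
  · exact allRange_iff.mp chk_24 c (by omega) (by omega)
  by_cases h25 : c < 38620
  · exact allRange_iff.mp chk_25 c (by omega) (by omega)
  by_cases h26 : c < 40120
  · exact allRange_iff.mp chk_26 c (by omega) (by omega)
  by_cases h27 : c < 41395
  · exact allRange_iff.mp chk_27 c (by omega) (by omega)
  by_cases h28 : c < 42895
  · exact allRange_iff.mp chk_28 c (by omega) (by omega)
  by_cases h29 : c < 44240
  · exact allRange_iff.mp chk_29 c (by omega) (by omega)
  by_cases h30 : c < 45716
  · exact allRange_iff.mp chk_30 c (by omega) (by omega)
  by_cases h31 : c < 47113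
  · exact allRange_iff.mp chk_31 c (by omega) (by omega)
  by_cases h32 : c < 48545
  · exact allRange_iff.mp chk_32 c (by omega) (by omega)
  by_cases h33 : c < 49854
  · exact allRange_iff.mp chk_33 c (by omega) (by omega)
  by_cases h34 : c < 50241
  · exact allRange_iff.mp chk_34 c (by omega) (by omega)
  by_cases h35 : c < 50669
  · exact allRange_iff.mp chk_35 c (by omega) (by omega)
  omega

end Cfsg.Agent.Lib.Helper28.V2.SuzMD
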