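import Cfsg.Agent.Lib.Helper28.Mult.SuzMDData

set_option autoImplicit false
set_option maxRecDepth 100000

namespace Cfsg.Agent.Lib.Helper28.V2.SuzMD

open Cfsg.Agent.Lib.Helper28

theorem chk_36 : allRange D.checkLabel 50669 428 = true := by decide +kernel
theorem chk_37 : allRange D.checkLabel 51097 53 = true := by decide +kernel
theorem chkF_3 : ∀ c, 50669 ≤ c → c < 51150 → D.checkLabel c = true := by
  intro c h1 h2
  by_cases h36 : c < 51097
  · exact allRange_iff.mp chk_36 c (by omega) (by omega)
  by_cases h37 : c < 51150
  · exact allRange_iff.mp chk_37 c (by omega) (by omega)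
  omega

end Cfsg.Agent.Lib.Helper28.V2.SuzMD
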