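import Cfsg.Agent.Lib.Helper28.Mult.SuzMDC0
import Cfsg.Agent.Lib.Helper28.Mult.SuzMDC1
import Cfsg.Agent.Lib.Helper28.Mult.SuzMDC2
import Cfsg.Agent.Lib.Helper28.Mult.SuzMDC3

set_option autoImplicit false
set_option maxRecDepth 100000

namespace Cfsg.Agent.Lib.Helper28.V2.SuzMD

open Cfsg.Agent.Lib.Helper28

theorem check_all : ∀ c < D.m, D.checkLabel c = true := by
  intro c hc
  have hc' : c < 51150 := hc
  by_cases h0 : c < 17884
  · exact chkF_0 c (by omega) (by omega)
  by_cases h1 : c < 35884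
  · exact chkF_1 c (by omega) (by omega)
  by_cases h2 : c < 50669
  · exact chkF_2 c (by omega) (by omega)
  by_cases h3 : c < 51150
  · exact chkF_3 c (by omega) (by omega)
  omega
theorem pairs_ok : pairsC.all (pairOK (relsAll relsL invL 7) invL 6 7) = true := by decide +kernel
theorem relsK_ok : ∀ r ∈ relsAll relsL invL 7, ∀ y ∈ r, y < 7 := by decide +kernel
theorem relsL_lt : ∀ r ∈ relsL, ∀ y ∈ r, y < 6 := by decide +kernel
theorem relsL_map : relsL.map (fun r => r.map ren) = W := by decide +kernel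
theorem dpairs_ok : D.pairs = pairsC.map Prod.fst := by decide +kernel
theorem fin_all : allBelow D.finalLabel 51150 = true := by decide +kernel
theorem live_count : D.liveCount = 6048 := by decide +kernel
theorem h0_ok : D.tg D.K 0 = 0 := by decide +kernel
theorem ok : Lk.OK W oinv Cfsg.Agent.Lib.Helper28.Mult.SuzM.C.K [20, 21, 22, 23, 24, 25] [] where
  Kall := rfl
  invK := by decide +kernel
  invE := rfl
  relsIn := by
    intro r hr
    refine ⟨relsL_lt r hr, ?_⟩
    rw [← relsL_map]
    exact List.mem_map_of_mem (f := fun r => r.map ren) hr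
  Dpairs := dpairs_ok
  pairs := pairs_ok
  relsK := relsK_ok
  isSub := by
    intro x hx
    have hx' : subL.contains x = true := hx
    show x ∈ subL
    simpa using hx'
  sub := by decide +kernel
  check := check_all
  gens := by decide +kernel
  hm := by decide
  h0 := h0_ok
  fin := allBelow_iff.mp fin_all
  count := live_count

theorem card_le {Γ : Type*} [Group Γ] (g : ℕ → Γ) (hW : ∀ t, evalW (Cfsg.Agent.Lib.Helper28.Mult.SuzM.C.val g) (Cfsg.Agent.Lib.Helper28.Mult.SuzM.C.word t) = 1)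
    (hB : Finite (Sg (Cfsg.Agent.Lib.Helper28.Mult.SuzM.C.val g) [])) :
    Finite (Sg (Cfsg.Agent.Lib.Helper28.Mult.SuzM.C.val g) [20, 21, 22, 23, 24, 25]) ∧
      Nat.card (Sg (Cfsg.Agent.Lib.Helper28.Mult.SuzM.C.val g) [20, 21, 22, 23, 24, 25]) ≤ 6048 * Nat.card (Sg (Cfsg.Agent.Lib.Helper28.Mult.SuzM.C.val g) []) :=
  ok.card_le _ (by
    intro w hw
    obtain ⟨t, _, rfl⟩ := List.mem_map.mp hw
    exact hW t) (fun y _ => Cov.val_oinv g y) hB

end Cfsg.Agent.Lib.Helper28.V2.SuzMD
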