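import Cfsg.Agent.Lib.Helper28.Mult.Stem
import Cfsg.Agent.Lib.Helper28.Mult.SuzMB
import Cfsg.Agent.Lib.Helper28.Mult.SuzMC
import Cfsg.Agent.Lib.Helper28.Mult.SuzMD
import Cfsg.Agent.Lib.Helper93.G24.Simple
import Cfsg.Agent.Lib.Helper28.TCBase

/-!
# Every stem extension of the presented group `G₂(4) = ⟨a, …, f⟩` has order at most `2 |G₂(4)|` (helper28)

The links `G₂(4) > J₂ > U₃(3) > 1` of the chain for `Suz` are used again; the covering presentation is the one
of `Suz` in which the generator `g` is killed.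
-/

set_option autoImplicit false
set_option maxRecDepth 100000

namespace Cfsg.Agent.Lib.Helper28.Mult.G24M

open Cfsg.Agent.Lib.Helper28 Cfsg.Agent.Lib.Helper28.V2

/-- the presentation of `G₂(4)` (helper93) -/
noncomputable abbrev QG : Prob Cfsg.Agent.Lib.Helper93.G24.Gen := Cfsg.Agent.Lib.Helper93.G24.Q
/-- the covering presentation of `Suz` -/
abbrev C0 : Cov := Cfsg.Agent.Lib.Helper28.Mult.SuzM.C

/-- kill the relators in which the generator `g` (letters 12, 13) occurs -/
def killR (r : List ℕ) : List ℕ := if r.all (fun y => y / 2 != 6) then r else []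

def relsC : List (List ℕ) := (SuzM.relsC.map killR).set 6 [12]
def normC : List (List ℕ) := SuzM.normC.set 6 [38]

def C : Cov where
  n := 13
  rels := relsC
  norm := normC

theorem C_ok : C.OK where
  relsK := by decide +kernel
  normK := by decide +kernel
  normLen := rfl
  esum := by decide +kernel

/-- the words of the links are the same for the two covering presentations -/
def sameTag (t : ℕ × ℕ × ℕ) : Bool :=
  decide (C0.word t = C.word t) && (C0.word t).all (fun y => decide (C0.ex y = C.ex y))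

theorem transfer {Γ : Type*} [Group Γ] (g : ℕ → Γ) (hW : ∀ t, evalW (C.val g) (C.word t) = 1)
    (tags : List (ℕ × ℕ × ℕ)) (h : tags.all sameTag = true) :
    ∀ w ∈ tags.map C0.word, evalW (C0.val g) w = 1 := by
  intro w hw
  obtain ⟨t, ht, rfl⟩ := List.mem_map.mp hw
  have h1 := List.all_eq_true.mp h t ht
  unfold sameTag at h1
  rw [Bool.and_eq_true, decide_eq_true_eq, List.all_eq_true] at h1
  rw [← hW t, ← h1.1]
  apply Prob.evalW_congr
  intro y hy
  have h2 := h1.2 y hy
  rw [decide_eq_true_eq] at h2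
  unfold Cov.val
  rw [h2]

theorem sameB : SuzMB.tags.all sameTag = true := by decide +kernel
theorem sameC : SuzMC.tags.all sameTag = true := by decide +kernel
theorem sameD : SuzMD.tags.all sameTag = true := by decide +kernel

abbrev P1 : List ℕ := [2]
abbrev P2 : List ℕ := [0, 1, 2, 3]
abbrev P3 : List ℕ := [3, 4, 3, 2, 3, 2, 1, 2, 3, 2, 3, 4, 3]

/-- commutator of two words in involutions -/
def cw (p q : List ℕ) : List ℕ := p.reverse ++ q.reverse ++ p ++ q

/-- the generators of the covering presentation as words in the generators of `G₂(4)` -/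
def sw : ℕ → List ℕ
  | 0 => [0] | 1 => [1] | 2 => [2] | 3 => [3] | 4 => [4] | 5 => [5]
  | 7 => cw P1 P2 | 8 => cw P1 P3 | 9 => cw P2 P3
  | 10 => P1 | 11 => P2 | 12 => P3
  | _ => []

def sw' (l : ℕ) : List ℕ := if l % 2 = 0 then sw (l / 2) else (sw (l / 2)).reverse

noncomputable def γ (i : ℕ) : QG.Grp := evalW QG.val (sw i)

theorem sw_lt : ∀ i, ∀ y ∈ sw i, y < 6 := by
  intro i
  by_cases hi : i < 13
  · interval_cases i <;> decide
  · have : sw i = [] := by
      unfold sw
      split <;> first | omega | rfl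
    rw [this]; simp

theorem evalW_reverse (w : List ℕ) (hw : ∀ y ∈ w, y < 6) :
    evalW QG.val w.reverse = (evalW QG.val w)⁻¹ := by
  induction w with
  | nil => simp
  | cons x w ih =>
    have hx : QG.val x = (QG.val x)⁻¹ := by
      have h := Cfsg.Agent.Lib.Helper93.G24.ok.val_inv x (hw x List.mem_cons_self)
      have e : QG.P.inv x = x := by
        have : x < 6 := hw x List.mem_cons_self
        interval_cases x <;> rfl
      rwa [e] at h
    rw [List.reverse_cons, evalW_append, ih (fun y hy => hw y (List.mem_cons_of_mem _ hy)), evalW_cons,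
      evalW_cons, evalW_nil, mul_one, mul_inv_rev, ← hx]

theorem bval_γ (l : ℕ) : bval γ l = evalW QG.val (sw' l) := by
  unfold bval sw'
  split_ifs
  · rfl
  · rw [evalW_reverse _ (sw_lt _)]; rfl

theorem evalW_γ (w : List ℕ) : evalW (bval γ) w = evalW QG.val (w.flatMap sw') := by
  rw [← evalW_flatMap]
  exact Prob.evalW_congr (fun y _ => bval_γ y)

theorem base_lt : ∀ b ∈ Cfsg.Agent.Lib.Helper93.G24.levels.map Lev.b, b < QG.n := by decide +kernel

theorem word_one (w : List ℕ) (hw : ∀ y ∈ w, y < 6)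
    (hchk : ∀ b ∈ Cfsg.Agent.Lib.Helper93.G24.levels.map Lev.b,
      ptrace Cfsg.Agent.Lib.Helper93.G24.L.pt w b = b + 1) : evalW QG.val w = 1 :=
  Cfsg.Agent.Lib.Helper93.G24.ok.word_eq_one_of_base Cfsg.Agent.Lib.Helper93.G24.main.2.2 251596800
    (by norm_num) Cfsg.Agent.Lib.Helper93.G24.main.2.1 Cfsg.Agent.Lib.Helper93.G24.levels
    Cfsg.Agent.Lib.Helper93.G24.chain_ok Cfsg.Agent.Lib.Helper93.G24.levels_prod base_lt w hw hchk

theorem rels_chk : ∀ r ∈ relsC, (∀ y ∈ r.flatMap sw', y < 6) ∧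
    ∀ b ∈ Cfsg.Agent.Lib.Helper93.G24.levels.map Lev.b,
      ptrace Cfsg.Agent.Lib.Helper93.G24.L.pt (r.flatMap sw') b = b + 1 := by decide +kernel

theorem hγ : ∀ r ∈ C.rels, evalW (bval γ) r = 1 := by
  intro r hr
  rw [evalW_γ]
  exact word_one _ (rels_chk r hr).1 (rels_chk r hr).2

section Main

variable {Γ : Type} [Group Γ] [Finite Γ] (σ : Γ →* QG.Grp)

theorem card_le (hσ : Cfsg.IsStemExtension σ) : Nat.card Γ ≤ 2 * 251596800 := by
  obtain ⟨g, hg, hW⟩ := Cov.exists_lift C_ok σ hσ.1 hσ.2.1 γ hγ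
  have hoinv : ∀ y < C0.K, C0.val g (oinv y) = (C0.val g y)⁻¹ := fun y _ => Cov.val_oinv g y
  -- the lifts generate
  have htop : Sg (C0.val g) [0, 1, 2, 3, 4, 5, 6, 7, 8, 9, 10, 11] = ⊤ := by
    apply Cfsg.Agent.Lib.Helper66.IsStemExtension.closure_eq_top hσ
    rw [eq_top_iff, ← Cfsg.Agent.Lib.Helper93.G24.ok.top]
    apply Subgroup.closure_mono
    rintro _ ⟨x, hx, rfl⟩
    have hx6 : x < 6 := hx
    refine ⟨C0.val g (2 * x), ⟨2 * x, ?_, rfl⟩, ?_⟩
    · show 2 * x ∈ [0, 1, 2, 3, 4, 5, 6, 7, 8, 9, 10, 11]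
      interval_cases x <;> decide
    · rw [Cov.val_two_mul g (show x < C0.n by show x < 13; omega), hg]
      show evalW QG.val (sw x) = QG.val x
      interval_cases x <;> simp [sw]
  -- the bottom link
  obtain ⟨fD, cD⟩ := SuzMD.ok.card_le (C0.val g) (transfer g hW _ sameD) hoinv
    (by rw [Sg_nil]; infer_instance)
  rw [Sg_nil] at cD
  -- the commutators lie in the lift of `U₃(3)`
  have hS1 : ∀ i, 10 ≤ i → i < 13 → g i ∈ Sg (C0.val g) [20, 21, 22, 23, 24, 25] := by
    intro i h1 h2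
    apply Subgroup.subset_closure
    refine ⟨2 * i, ?_, Cov.val_two_mul g (show i < C0.n by show i < 13; omega)⟩
    show 2 * i ∈ [20, 21, 22, 23, 24, 25]
    interval_cases i <;> decide
  have hlift : ∀ (i : ℕ) (P : List ℕ), P.flatMap sw' = sw i → σ (g i) = σ (evalW (bval g) P) := by
    intro i P hP
    rw [hg, map_evalW_bval]
    have : (fun i => σ (g i)) = γ := funext hg
    rw [this, evalW_γ, hP]
    rfl
  have htau : ∀ x, 7 ≤ x → x < 10 → g x ∈ Sg (C0.val g) [20, 21, 22, 23, 24, 25] := by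
    intro x h1 h2
    have T := fun (j : ℕ) (P R : List ℕ) (a b : ℕ) (ha1 : 10 ≤ a) (ha2 : a < 13) (hb1 : 10 ≤ b) (hb2 : b < 13)
      (e1 : C.nrm x = [2 * C.n + 2 * j + 1]) (e2 : C.rel j = invW P ++ invW R ++ P ++ R ++ [2 * x + 1])
      (e3 : P.flatMap sw' = sw a) (e4 : R.flatMap sw' = sw b) =>
      Cov.tau_mem σ hσ.2.1 g hW (Sg (C0.val g) [20, 21, 22, 23, 24, 25]) x j P R e1 e2
        (g a) (g b) (hS1 a ha1 ha2) (hS1 b hb1 hb2) (hlift a P e3) (hlift b R e4)
    interval_cases x
    · exact T 33 (P1.map (fun y => 2 * y)) (P2.map (fun y => 2 * y)) 10 11 (by omega) (by omega) (by omega) (by omega) (by decide +kernel) (by decide +kernel) (by decide +kernel) (by decide +kernel)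
    · exact T 34 (P1.map (fun y => 2 * y)) (P3.map (fun y => 2 * y)) 10 12 (by omega) (by omega) (by omega) (by omega) (by decide +kernel) (by decide +kernel) (by decide +kernel) (by decide +kernel)
    · exact T 35 (P2.map (fun y => 2 * y)) (P3.map (fun y => 2 * y)) 11 12 (by omega) (by omega) (by omega) (by omega) (by decide +kernel) (by decide +kernel) (by decide +kernel) (by decide +kernel)
  have hle : Sg (C0.val g) [14, 15, 16, 17, 18, 19] ≤ Sg (C0.val g) [20, 21, 22, 23, 24, 25] := by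
    unfold Sg
    rw [Subgroup.closure_le]
    rintro _ ⟨l, hl, rfl⟩
    have hl' : l ∈ [14, 15, 16, 17, 18, 19] := hl
    have h14 : 14 ≤ l ∧ l < 20 := by
      simp only [List.mem_cons, List.mem_nil_iff, or_false] at hl'
      omega
    by_cases hp : l % 2 = 0
    · obtain ⟨x, rfl⟩ : ∃ x, l = 2 * x := ⟨l / 2, by omega⟩
      rw [Cov.val_two_mul g (show x < C0.n by show x < 13; omega)]
      exact htau x (by omega) (by omega)
    · obtain ⟨x, rfl⟩ : ∃ x, l = 2 * x + 1 := ⟨l / 2, by omega⟩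
      rw [Cov.val_two_mul_add_one g (show x < C0.n by show x < 13; omega)]
      exact Subgroup.inv_mem _ (htau x (by omega) (by omega))
  have fT : Finite (Sg (C0.val g) [14, 15, 16, 17, 18, 19]) :=
    Finite.of_injective _ (Subgroup.inclusion_injective hle)
  have cT := Nat.card_le_card_of_injective _ (Subgroup.inclusion_injective hle)
  obtain ⟨fC, cC⟩ := SuzMC.ok.card_le (C0.val g) (transfer g hW _ sameC) hoinv fT
  obtain ⟨fB, cB⟩ := SuzMB.ok.card_le (C0.val g) (transfer g hW _ sameB) hoinv fC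
  rw [htop] at cB
  have e : Nat.card (⊤ : Subgroup Γ) = Nat.card Γ := Nat.card_congr Subgroup.topEquiv.toEquiv
  rw [e] at cB
  have c1 : Nat.card (⊥ : Subgroup Γ) = 1 := by simp
  rw [c1] at cD
  calc Nat.card Γ ≤ 416 * Nat.card (Sg (C0.val g) [0, 1, 2, 3, 4, 5, 6, 7, 8, 9]) := cB
    _ ≤ 416 * (200 * (6048 * 1)) :=
        Nat.mul_le_mul_left _ (le_trans cC (Nat.mul_le_mul_left _ (le_trans cT cD)))
    _ = 2 * 251596800 := by norm_num

end Main

end Cfsg.Agent.Lib.Helper28.Mult.G24M
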