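import Cfsg.Agent.Lib.Helper28.Mult.HeMAData

set_option autoImplicit false
set_option maxRecDepth 100000

namespace Cfsg.Agent.Lib.Helper28.V2.HeMA

open Cfsg.Agent.Lib.Helper28

theorem chk_120 : allRange D.checkLabel 23852 198 = true := by decide +kernel
theorem chk_121 : allRange D.checkLabel 24050 171 = true := by decide +kernel
theorem chk_122 : allRange D.checkLabel 24221 268 = true := by decide +kernel
theorem chk_123 : allRange D.checkLabel 24489 166 = true := by decide +kernel
theorem chk_124 : allRange D.checkLabel 24655 155 = true := by decide +kernel
theorem chk_125 : allRange D.checkLabel 24810 132 = true := by decide +kernel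
theorem chk_126 : allRange D.checkLabel 24942 164 = true := by decide +kernel
theorem chk_127 : allRange D.checkLabel 25106 169 = true := by decide +kernel
theorem chk_128 : allRange D.checkLabel 25275 219 = true := by decide +kernel
theorem chk_129 : allRange D.checkLabel 25494 196 = true := by decide +kernel
theorem chk_130 : allRange D.checkLabel 25690 305 = true := by decide +kernel
theorem chk_131 : allRange D.checkLabel 25995 316 = true := by decide +kernel
theorem chkF_10 : ∀ c, 23852 ≤ c → c < 26311 → D.checkLabel c = true := by
  intro c h1 h2
  by_cases h120 : c < 24050
  · exact allRange_iff.mp chk_120 c (by omega) (by omega)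
  by_cases h121 : c < 24221
  · exact allRange_iff.mp chk_121 c (by omega) (by omega)
  by_cases h122 : c < 24489
  · exact allRange_iff.mp chk_122 c (by omega) (by omega)
  by_cases h123 : c < 24655
  · exact allRange_iff.mp chk_123 c (by omega) (by omega)
  by_cases h124 : c < 24810
  · exact allRange_iff.mp chk_124 c (by omega) (by omega)
  by_cases h125 : c < 24942
  · exact allRange_iff.mp chk_125 c (by omega) (by omega)
  by_cases h126 : c < 25106
  · exact allRange_iff.mp chk_126 c (by omega) (by omega)
  by_cases h127 : c < 25275
  · exact allRange_iff.mp chk_127 c (by omega) (by omega)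
  by_cases h128 : c < 25494
  · exact allRange_iff.mp chk_128 c (by omega) (by omega)
  by_cases h129 : c < 25690
  · exact allRange_iff.mp chk_129 c (by omega) (by omega)
  by_cases h130 : c < 25995
  · exact allRange_iff.mp chk_130 c (by omega) (by omega)
  by_cases h131 : c < 26311
  · exact allRange_iff.mp chk_131 c (by omega) (by omega)
  omega

end Cfsg.Agent.Lib.Helper28.V2.HeMA
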