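import Cfsg.Agent.Lib.Helper28.Mult.HeMAData

set_option autoImplicit false
set_option maxRecDepth 100000

namespace Cfsg.Agent.Lib.Helper28.V2.HeMA

open Cfsg.Agent.Lib.Helper28

theorem chk_144 : allRange D.checkLabel 29369 185 = true := by decide +kernel
theorem chk_145 : allRange D.checkLabel 29554 174 = true := by decide +kernel
theorem chk_146 : allRange D.checkLabel 29728 169 = true := by decide +kernel
theorem chk_147 : allRange D.checkLabel 29897 302 = true := by decide +kernel
theorem chk_148 : allRange D.checkLabel 30199 264 = true := by decide +kernel
theorem chk_149 : allRange D.checkLabel 30463 278 = true := by decide +kernel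
theorem chk_150 : allRange D.checkLabel 30741 320 = true := by decide +kernel
theorem chk_151 : allRange D.checkLabel 31061 283 = true := by decide +kernel
theorem chk_152 : allRange D.checkLabel 31344 190 = true := by decide +kernel
theorem chk_153 : allRange D.checkLabel 31534 285 = true := by decide +kernel
theorem chk_154 : allRange D.checkLabel 31819 195 = true := by decide +kernel
theorem chk_155 : allRange D.checkLabel 32014 166 = true := by decide +kernel
theorem chkF_12 : ∀ c, 29369 ≤ c → c < 32180 → D.checkLabel c = true := by
  intro c h1 h2
  by_cases h144 : c < 29554
  · exact allRange_iff.mp chk_144 c (by omega) (by omega)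
  by_cases h145 : c < 29728
  · exact allRange_iff.mp chk_145 c (by omega) (by omega)
  by_cases h146 : c < 29897
  · exact allRange_iff.mp chk_146 c (by omega) (by omega)
  by_cases h147 : c < 30199
  · exact allRange_iff.mp chk_147 c (by omega) (by omega)
  by_cases h148 : c < 30463
  · exact allRange_iff.mp chk_148 c (by omega) (by omega)
  by_cases h149 : c < 30741
  · exact allRange_iff.mp chk_149 c (by omega) (by omega)
  by_cases h150 : c < 31061
  · exact allRange_iff.mp chk_150 c (by omega) (by omega)
  by_cases h151 : c < 31344
  · exact allRange_iff.mp chk_151 c (by omega) (by omega)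
  by_cases h152 : c < 31534
  · exact allRange_iff.mp chk_152 c (by omega) (by omega)
  by_cases h153 : c < 31819
  · exact allRange_iff.mp chk_153 c (by omega) (by omega)
  by_cases h154 : c < 32014
  · exact allRange_iff.mp chk_154 c (by omega) (by omega)
  by_cases h155 : c < 32180
  · exact allRange_iff.mp chk_155 c (by omega) (by omega)
  omega

end Cfsg.Agent.Lib.Helper28.V2.HeMA
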