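import Cfsg.Agent.Lib.Helper28.Mult.HeMAData

set_option autoImplicit false
set_option maxRecDepth 100000

namespace Cfsg.Agent.Lib.Helper28.V2.HeMA

open Cfsg.Agent.Lib.Helper28

theorem chk_168 : allRange D.checkLabel 34892 287 = true := by decide +kernel
theorem chk_169 : allRange D.checkLabel 35179 262 = true := by decide +kernel
theorem chk_170 : allRange D.checkLabel 35441 322 = true := by decide +kernel
theorem chk_171 : allRange D.checkLabel 35763 335 = true := by decide +kernel
theorem chk_172 : allRange D.checkLabel 36098 262 = true := by decide +kernel
theorem chk_173 : allRange D.checkLabel 36360 269 = true := by decide +kernel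
theorem chk_174 : allRange D.checkLabel 36629 252 = true := by decide +kernel
theorem chk_175 : allRange D.checkLabel 36881 274 = true := by decide +kernel
theorem chk_176 : allRange D.checkLabel 37155 299 = true := by decide +kernel
theorem chk_177 : allRange D.checkLabel 37454 22 = true := by decide +kernel
theorem chkF_14 : ∀ c, 34892 ≤ c → c < 37476 → D.checkLabel c = true := by
  intro c h1 h2
  by_cases h168 : c < 35179
  · exact allRange_iff.mp chk_168 c (by omega) (by omega)
  by_cases h169 : c < 35441
  · exact allRange_iff.mp chk_169 c (by omega) (by omega)
  by_cases h170 : c < 35763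
  · exact allRange_iff.mp chk_170 c (by omega) (by omega)
  by_cases h171 : c < 36098
  · exact allRange_iff.mp chk_171 c (by omega) (by omega)
  by_cases h172 : c < 36360
  · exact allRange_iff.mp chk_172 c (by omega) (by omega)
  by_cases h173 : c < 36629
  · exact allRange_iff.mp chk_173 c (by omega) (by omega)
  by_cases h174 : c < 36881
  · exact allRange_iff.mp chk_174 c (by omega) (by omega)
  by_cases h175 : c < 37155
  · exact allRange_iff.mp chk_175 c (by omega) (by omega)
  by_cases h176 : c < 37454
  · exact allRange_iff.mp chk_176 c (by omega) (by omega)
  by_cases h177 : c < 37476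
  · exact allRange_iff.mp chk_177 c (by omega) (by omega)
  omega

end Cfsg.Agent.Lib.Helper28.V2.HeMA
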