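import Cfsg.Agent.Lib.Helper28.Mult.HeMAData

set_option autoImplicit false
set_option maxRecDepth 100000

namespace Cfsg.Agent.Lib.Helper28.V2.HeMA

open Cfsg.Agent.Lib.Helper28

theorem chk_24 : allRange D.checkLabel 6261 148 = true := by decide +kernel
theorem chk_25 : allRange D.checkLabel 6409 95 = true := by decide +kernel
theorem chk_26 : allRange D.checkLabel 6504 177 = true := by decide +kernel
theorem chk_27 : allRange D.checkLabel 6681 122 = true := by decide +kernel
theorem chk_28 : allRange D.checkLabel 6803 200 = true := by decide +kernel
theorem chk_29 : allRange D.checkLabel 7003 133 = true := by decide +kernel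
theorem chk_30 : allRange D.checkLabel 7136 130 = true := by decide +kernel
theorem chk_31 : allRange D.checkLabel 7266 216 = true := by decide +kernel
theorem chk_32 : allRange D.checkLabel 7482 139 = true := by decide +kernel
theorem chk_33 : allRange D.checkLabel 7621 229 = true := by decide +kernel
theorem chk_34 : allRange D.checkLabel 7850 201 = true := by decide +kernel
theorem chk_35 : allRange D.checkLabel 8051 164 = true := by decide +kernel
theorem chkF_2 : ∀ c, 6261 ≤ c → c < 8215 → D.checkLabel c = true := by
  intro c h1 h2
  by_cases h24 : c < 6409
  · exact allRange_iff.mp chk_24 c (by omega) (by omega)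
  by_cases h25 : c < 6504
  · exact allRange_iff.mp chk_25 c (by omega) (by omega)
  by_cases h26 : c < 6681
  · exact allRange_iff.mp chk_26 c (by omega) (by omega)
  by_cases h27 : c < 6803
  · exact allRange_iff.mp chk_27 c (by omega) (by omega)
  by_cases h28 : c < 7003
  · exact allRange_iff.mp chk_28 c (by omega) (by omega)
  by_cases h29 : c < 7136
  · exact allRange_iff.mp chk_29 c (by omega) (by omega)
  by_cases h30 : c < 7266
  · exact allRange_iff.mp chk_30 c (by omega) (by omega)
  by_cases h31 : c < 7482
  · exact allRange_iff.mp chk_31 c (by omega) (by omega)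
  by_cases h32 : c < 7621
  · exact allRange_iff.mp chk_32 c (by omega) (by omega)
  by_cases h33 : c < 7850
  · exact allRange_iff.mp chk_33 c (by omega) (by omega)
  by_cases h34 : c < 8051
  · exact allRange_iff.mp chk_34 c (by omega) (by omega)
  by_cases h35 : c < 8215
  · exact allRange_iff.mp chk_35 c (by omega) (by omega)
  omega

end Cfsg.Agent.Lib.Helper28.V2.HeMA
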