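import Cfsg.Agent.Lib.Helper28.Mult.HeMAData

set_option autoImplicit false
set_option maxRecDepth 100000

namespace Cfsg.Agent.Lib.Helper28.V2.HeMA

open Cfsg.Agent.Lib.Helper28

theorem chk_36 : allRange D.checkLabel 8215 100 = true := by decide +kernel
theorem chk_37 : allRange D.checkLabel 8315 122 = true := by decide +kernel
theorem chk_38 : allRange D.checkLabel 8437 235 = true := by decide +kernel
theorem chk_39 : allRange D.checkLabel 8672 190 = true := by decide +kernel
theorem chk_40 : allRange D.checkLabel 8862 192 = true := by decide +kernel
theorem chk_41 : allRange D.checkLabel 9054 120 = true := by decide +kernel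
theorem chk_42 : allRange D.checkLabel 9174 194 = true := by decide +kernel
theorem chk_43 : allRange D.checkLabel 9368 227 = true := by decide +kernel
theorem chk_44 : allRange D.checkLabel 9595 244 = true := by decide +kernel
theorem chk_45 : allRange D.checkLabel 9839 156 = true := by decide +kernel
theorem chk_46 : allRange D.checkLabel 9995 106 = true := by decide +kernel
theorem chk_47 : allRange D.checkLabel 10101 203 = true := by decide +kernel
theorem chkF_3 : ∀ c, 8215 ≤ c → c < 10304 → D.checkLabel c = true := by
  intro c h1 h2
  by_cases h36 : c < 8315
  · exact allRange_iff.mp chk_36 c (by omega) (by omega)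
  by_cases h37 : c < 8437
  · exact allRange_iff.mp chk_37 c (by omega) (by omega)
  by_cases h38 : c < 8672
  · exact allRange_iff.mp chk_38 c (by omega) (by omega)
  by_cases h39 : c < 8862
  · exact allRange_iff.mp chk_39 c (by omega) (by omega)
  by_cases h40 : c < 9054
  · exact allRange_iff.mp chk_40 c (by omega) (by omega)
  by_cases h41 : c < 9174
  · exact allRange_iff.mp chk_41 c (by omega) (by omega)
  by_cases h42 : c < 9368
  · exact allRange_iff.mp chk_42 c (by omega) (by omega)
  by_cases h43 : c < 9595
  · exact allRange_iff.mp chk_43 c (by omega) (by omega)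
  by_cases h44 : c < 9839
  · exact allRange_iff.mp chk_44 c (by omega) (by omega)
  by_cases h45 : c < 9995
  · exact allRange_iff.mp chk_45 c (by omega) (by omega)
  by_cases h46 : c < 10101
  · exact allRange_iff.mp chk_46 c (by omega) (by omega)
  by_cases h47 : c < 10304
  · exact allRange_iff.mp chk_47 c (by omega) (by omega)
  omega

end Cfsg.Agent.Lib.Helper28.V2.HeMA
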