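import Cfsg.Agent.Lib.Helper28.Mult.HeMAData

set_option autoImplicit false
set_option maxRecDepth 100000

namespace Cfsg.Agent.Lib.Helper28.V2.HeMA

open Cfsg.Agent.Lib.Helper28

theorem chk_48 : allRange D.checkLabel 10304 104 = true := by decide +kernel
theorem chk_49 : allRange D.checkLabel 10408 79 = true := by decide +kernel
theorem chk_50 : allRange D.checkLabel 10487 86 = true := by decide +kernel
theorem chk_51 : allRange D.checkLabel 10573 159 = true := by decide +kernel
theorem chk_52 : allRange D.checkLabel 10732 198 = true := by decide +kernel
theorem chk_53 : allRange D.checkLabel 10930 218 = true := by decide +kernel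
theorem chk_54 : allRange D.checkLabel 11148 193 = true := by decide +kernel
theorem chk_55 : allRange D.checkLabel 11341 186 = true := by decide +kernel
theorem chk_56 : allRange D.checkLabel 11527 144 = true := by decide +kernel
theorem chk_57 : allRange D.checkLabel 11671 161 = true := by decide +kernel
theorem chk_58 : allRange D.checkLabel 11832 133 = true := by decide +kernel
theorem chk_59 : allRange D.checkLabel 11965 195 = true := by decide +kernel
theorem chkF_4 : ∀ c, 10304 ≤ c → c < 12160 → D.checkLabel c = true := by
  intro c h1 h2
  by_cases h48 : c < 10408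
  · exact allRange_iff.mp chk_48 c (by omega) (by omega)
  by_cases h49 : c < 10487
  · exact allRange_iff.mp chk_49 c (by omega) (by omega)
  by_cases h50 : c < 10573
  · exact allRange_iff.mp chk_50 c (by omega) (by omega)
  by_cases h51 : c < 10732
  · exact allRange_iff.mp chk_51 c (by omega) (by omega)
  by_cases h52 : c < 10930
  · exact allRange_iff.mp chk_52 c (by omega) (by omega)
  by_cases h53 : c < 11148
  · exact allRange_iff.mp chk_53 c (by omega) (by omega)
  by_cases h54 : c < 11341
  · exact allRange_iff.mp chk_54 c (by omega) (by omega)
  by_cases h55 : c < 11527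
  · exact allRange_iff.mp chk_55 c (by omega) (by omega)
  by_cases h56 : c < 11671
  · exact allRange_iff.mp chk_56 c (by omega) (by omega)
  by_cases h57 : c < 11832
  · exact allRange_iff.mp chk_57 c (by omega) (by omega)
  by_cases h58 : c < 11965
  · exact allRange_iff.mp chk_58 c (by omega) (by omega)
  by_cases h59 : c < 12160
  · exact allRange_iff.mp chk_59 c (by omega) (by omega)
  omega

end Cfsg.Agent.Lib.Helper28.V2.HeMA
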