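import Cfsg.Agent.Lib.Helper28.Mult.HeMAData

set_option autoImplicit false
set_option maxRecDepth 100000

namespace Cfsg.Agent.Lib.Helper28.V2.HeMA

open Cfsg.Agent.Lib.Helper28

theorem chk_60 : allRange D.checkLabel 12160 214 = true := by decide +kernel
theorem chk_61 : allRange D.checkLabel 12374 218 = true := by decide +kernel
theorem chk_62 : allRange D.checkLabel 12592 264 = true := by decide +kernel
theorem chk_63 : allRange D.checkLabel 12856 142 = true := by decide +kernel
theorem chk_64 : allRange D.checkLabel 12998 132 = true := by decide +kernel
theorem chk_65 : allRange D.checkLabel 13130 130 = true := by decide +kernel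
theorem chk_66 : allRange D.checkLabel 13260 150 = true := by decide +kernel
theorem chk_67 : allRange D.checkLabel 13410 193 = true := by decide +kernel
theorem chk_68 : allRange D.checkLabel 13603 88 = true := by decide +kernel
theorem chk_69 : allRange D.checkLabel 13691 93 = true := by decide +kernel
theorem chk_70 : allRange D.checkLabel 13784 105 = true := by decide +kernel
theorem chk_71 : allRange D.checkLabel 13889 114 = true := by decide +kernel
theorem chkF_5 : ∀ c, 12160 ≤ c → c < 14003 → D.checkLabel c = true := by
  intro c h1 h2
  by_cases h60 : c < 12374
  · exact allRange_iff.mp chk_60 c (by omega) (by omega)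
  by_cases h61 : c < 12592
  · exact allRange_iff.mp chk_61 c (by omega) (by omega)
  by_cases h62 : c < 12856
  · exact allRange_iff.mp chk_62 c (by omega) (by omega)
  by_cases h63 : c < 12998
  · exact allRange_iff.mp chk_63 c (by omega) (by omega)
  by_cases h64 : c < 13130
  · exact allRange_iff.mp chk_64 c (by omega) (by omega)
  by_cases h65 : c < 13260
  · exact allRange_iff.mp chk_65 c (by omega) (by omega)
  by_cases h66 : c < 13410
  · exact allRange_iff.mp chk_66 c (by omega) (by omega)
  by_cases h67 : c < 13603
  · exact allRange_iff.mp chk_67 c (by omega) (by omega)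
  by_cases h68 : c < 13691
  · exact allRange_iff.mp chk_68 c (by omega) (by omega)
  by_cases h69 : c < 13784
  · exact allRange_iff.mp chk_69 c (by omega) (by omega)
  by_cases h70 : c < 13889
  · exact allRange_iff.mp chk_70 c (by omega) (by omega)
  by_cases h71 : c < 14003
  · exact allRange_iff.mp chk_71 c (by omega) (by omega)
  omega

end Cfsg.Agent.Lib.Helper28.V2.HeMA
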