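import Cfsg.Agent.Lib.Helper28.Mult.HeMAData

set_option autoImplicit false
set_option maxRecDepth 100000

namespace Cfsg.Agent.Lib.Helper28.V2.HeMA

open Cfsg.Agent.Lib.Helper28

theorem chk_72 : allRange D.checkLabel 14003 193 = true := by decide +kernel
theorem chk_73 : allRange D.checkLabel 14196 199 = true := by decide +kernel
theorem chk_74 : allRange D.checkLabel 14395 245 = true := by decide +kernel
theorem chk_75 : allRange D.checkLabel 14640 261 = true := by decide +kernel
theorem chk_76 : allRange D.checkLabel 14901 95 = true := by decide +kernel
theorem chk_77 : allRange D.checkLabel 14996 229 = true := by decide +kernel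
theorem chk_78 : allRange D.checkLabel 15225 139 = true := by decide +kernel
theorem chk_79 : allRange D.checkLabel 15364 257 = true := by decide +kernel
theorem chk_80 : allRange D.checkLabel 15621 148 = true := by decide +kernel
theorem chk_81 : allRange D.checkLabel 15769 142 = true := by decide +kernel
theorem chk_82 : allRange D.checkLabel 15911 234 = true := by decide +kernel
theorem chk_83 : allRange D.checkLabel 16145 264 = true := by decide +kernel
theorem chkF_6 : ∀ c, 14003 ≤ c → c < 16409 → D.checkLabel c = true := by
  intro c h1 h2
  by_cases h72 : c < 14196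
  · exact allRange_iff.mp chk_72 c (by omega) (by omega)
  by_cases h73 : c < 14395
  · exact allRange_iff.mp chk_73 c (by omega) (by omega)
  by_cases h74 : c < 14640
  · exact allRange_iff.mp chk_74 c (by omega) (by omega)
  by_cases h75 : c < 14901
  · exact allRange_iff.mp chk_75 c (by omega) (by omega)
  by_cases h76 : c < 14996
  · exact allRange_iff.mp chk_76 c (by omega) (by omega)
  by_cases h77 : c < 15225
  · exact allRange_iff.mp chk_77 c (by omega) (by omega)
  by_cases h78 : c < 15364
  · exact allRange_iff.mp chk_78 c (by omega) (by omega)
  by_cases h79 : c < 15621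
  · exact allRange_iff.mp chk_79 c (by omega) (by omega)
  by_cases h80 : c < 15769
  · exact allRange_iff.mp chk_80 c (by omega) (by omega)
  by_cases h81 : c < 15911
  · exact allRange_iff.mp chk_81 c (by omega) (by omega)
  by_cases h82 : c < 16145
  · exact allRange_iff.mp chk_82 c (by omega) (by omega)
  by_cases h83 : c < 16409
  · exact allRange_iff.mp chk_83 c (by omega) (by omega)
  omega

end Cfsg.Agent.Lib.Helper28.V2.HeMA
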