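import Cfsg.Agent.Lib.Helper28.Mult.HeMAData

set_option autoImplicit false
set_option maxRecDepth 100000

namespace Cfsg.Agent.Lib.Helper28.V2.HeMA

open Cfsg.Agent.Lib.Helper28

theorem chk_84 : allRange D.checkLabel 16409 272 = true := by decide +kernel
theorem chk_85 : allRange D.checkLabel 16681 255 = true := by decide +kernel
theorem chk_86 : allRange D.checkLabel 16936 164 = true := by decide +kernel
theorem chk_87 : allRange D.checkLabel 17100 165 = true := by decide +kernel
theorem chk_88 : allRange D.checkLabel 17265 134 = true := by decide +kernel
theorem chk_89 : allRange D.checkLabel 17399 168 = true := by decide +kernel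
theorem chk_90 : allRange D.checkLabel 17567 198 = true := by decide +kernel
theorem chk_91 : allRange D.checkLabel 17765 182 = true := by decide +kernel
theorem chk_92 : allRange D.checkLabel 17947 115 = true := by decide +kernel
theorem chk_93 : allRange D.checkLabel 18062 106 = true := by decide +kernel
theorem chk_94 : allRange D.checkLabel 18168 122 = true := by decide +kernel
theorem chk_95 : allRange D.checkLabel 18290 150 = true := by decide +kernel
theorem chkF_7 : ∀ c, 16409 ≤ c → c < 18440 → D.checkLabel c = true := by
  intro c h1 h2
  by_cases h84 : c < 16681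
  · exact allRange_iff.mp chk_84 c (by omega) (by omega)
  by_cases h85 : c < 16936
  · exact allRange_iff.mp chk_85 c (by omega) (by omega)
  by_cases h86 : c < 17100
  · exact allRange_iff.mp chk_86 c (by omega) (by omega)
  by_cases h87 : c < 17265
  · exact allRange_iff.mp chk_87 c (by omega) (by omega)
  by_cases h88 : c < 17399
  · exact allRange_iff.mp chk_88 c (by omega) (by omega)
  by_cases h89 : c < 17567
  · exact allRange_iff.mp chk_89 c (by omega) (by omega)
  by_cases h90 : c < 17765
  · exact allRange_iff.mp chk_90 c (by omega) (by omega)
  by_cases h91 : c < 17947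
  · exact allRange_iff.mp chk_91 c (by omega) (by omega)
  by_cases h92 : c < 18062
  · exact allRange_iff.mp chk_92 c (by omega) (by omega)
  by_cases h93 : c < 18168
  · exact allRange_iff.mp chk_93 c (by omega) (by omega)
  by_cases h94 : c < 18290
  · exact allRange_iff.mp chk_94 c (by omega) (by omega)
  by_cases h95 : c < 18440
  · exact allRange_iff.mp chk_95 c (by omega) (by omega)
  omega

end Cfsg.Agent.Lib.Helper28.V2.HeMA
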