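import Cfsg.Agent.Lib.Helper28.Mult.HeMAData

set_option autoImplicit false
set_option maxRecDepth 100000

namespace Cfsg.Agent.Lib.Helper28.V2.HeMA

open Cfsg.Agent.Lib.Helper28

theorem chk_96 : allRange D.checkLabel 18440 145 = true := by decide +kernel
theorem chk_97 : allRange D.checkLabel 18585 220 = true := by decide +kernel
theorem chk_98 : allRange D.checkLabel 18805 216 = true := by decide +kernel
theorem chk_99 : allRange D.checkLabel 19021 249 = true := by decide +kernel
theorem chk_100 : allRange D.checkLabel 19270 285 = true := by decide +kernel
theorem chk_101 : allRange D.checkLabel 19555 310 = true := by decide +kernel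
theorem chk_102 : allRange D.checkLabel 19865 149 = true := by decide +kernel
theorem chk_103 : allRange D.checkLabel 20014 173 = true := by decide +kernel
theorem chk_104 : allRange D.checkLabel 20187 287 = true := by decide +kernel
theorem chk_105 : allRange D.checkLabel 20474 202 = true := by decide +kernel
theorem chk_106 : allRange D.checkLabel 20676 311 = true := by decide +kernel
theorem chk_107 : allRange D.checkLabel 20987 219 = true := by decide +kernel
theorem chkF_8 : ∀ c, 18440 ≤ c → c < 21206 → D.checkLabel c = true := by
  intro c h1 h2
  by_cases h96 : c < 18585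
  · exact allRange_iff.mp chk_96 c (by omega) (by omega)
  by_cases h97 : c < 18805
  · exact allRange_iff.mp chk_97 c (by omega) (by omega)
  by_cases h98 : c < 19021
  · exact allRange_iff.mp chk_98 c (by omega) (by omega)
  by_cases h99 : c < 19270
  · exact allRange_iff.mp chk_99 c (by omega) (by omega)
  by_cases h100 : c < 19555
  · exact allRange_iff.mp chk_100 c (by omega) (by omega)
  by_cases h101 : c < 19865
  · exact allRange_iff.mp chk_101 c (by omega) (by omega)
  by_cases h102 : c < 20014
  · exact allRange_iff.mp chk_102 c (by omega) (by omega)
  by_cases h103 : c < 20187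
  · exact allRange_iff.mp chk_103 c (by omega) (by omega)
  by_cases h104 : c < 20474
  · exact allRange_iff.mp chk_104 c (by omega) (by omega)
  by_cases h105 : c < 20676
  · exact allRange_iff.mp chk_105 c (by omega) (by omega)
  by_cases h106 : c < 20987
  · exact allRange_iff.mp chk_106 c (by omega) (by omega)
  by_cases h107 : c < 21206
  · exact allRange_iff.mp chk_107 c (by omega) (by omega)
  omega

end Cfsg.Agent.Lib.Helper28.V2.HeMA
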