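import Cfsg.Agent.Lib.Helper28.Mult.HeMAData

set_option autoImplicit false
set_option maxRecDepth 100000

namespace Cfsg.Agent.Lib.Helper28.V2.HeMA

open Cfsg.Agent.Lib.Helper28

theorem chk_108 : allRange D.checkLabel 21206 160 = true := by decide +kernel
theorem chk_109 : allRange D.checkLabel 21366 173 = true := by decide +kernel
theorem chk_110 : allRange D.checkLabel 21539 267 = true := by decide +kernel
theorem chk_111 : allRange D.checkLabel 21806 245 = true := by decide +kernel
theorem chk_112 : allRange D.checkLabel 22051 310 = true := by decide +kernel
theorem chk_113 : allRange D.checkLabel 22361 294 = true := by decide +kernel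
theorem chk_114 : allRange D.checkLabel 22655 247 = true := by decide +kernel
theorem chk_115 : allRange D.checkLabel 22902 186 = true := by decide +kernel
theorem chk_116 : allRange D.checkLabel 23088 270 = true := by decide +kernel
theorem chk_117 : allRange D.checkLabel 23358 137 = true := by decide +kernel
theorem chk_118 : allRange D.checkLabel 23495 153 = true := by decide +kernel
theorem chk_119 : allRange D.checkLabel 23648 204 = true := by decide +kernel
theorem chkF_9 : ∀ c, 21206 ≤ c → c < 23852 → D.checkLabel c = true := by
  intro c h1 h2
  by_cases h108 : c < 21366
  · exact allRange_iff.mp chk_108 c (by omega) (by omega)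
  by_cases h109 : c < 21539
  · exact allRange_iff.mp chk_109 c (by omega) (by omega)
  by_cases h110 : c < 21806
  · exact allRange_iff.mp chk_110 c (by omega) (by omega)
  by_cases h111 : c < 22051
  · exact allRange_iff.mp chk_111 c (by omega) (by omega)
  by_cases h112 : c < 22361
  · exact allRange_iff.mp chk_112 c (by omega) (by omega)
  by_cases h113 : c < 22655
  · exact allRange_iff.mp chk_113 c (by omega) (by omega)
  by_cases h114 : c < 22902
  · exact allRange_iff.mp chk_114 c (by omega) (by omega)
  by_cases h115 : c < 23088
  · exact allRange_iff.mp chk_115 c (by omega) (by omega)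
  by_cases h116 : c < 23358
  · exact allRange_iff.mp chk_116 c (by omega) (by omega)
  by_cases h117 : c < 23495
  · exact allRange_iff.mp chk_117 c (by omega) (by omega)
  by_cases h118 : c < 23648
  · exact allRange_iff.mp chk_118 c (by omega) (by omega)
  by_cases h119 : c < 23852
  · exact allRange_iff.mp chk_119 c (by omega) (by omega)
  omega

end Cfsg.Agent.Lib.Helper28.V2.HeMA
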