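import Cfsg.Agent.Lib.Helper28.Mult.HeMAC0
import Cfsg.Agent.Lib.Helper28.Mult.HeMAC1
import Cfsg.Agent.Lib.Helper28.Mult.HeMAC2
import Cfsg.Agent.Lib.Helper28.Mult.HeMAC3
import Cfsg.Agent.Lib.Helper28.Mult.HeMAC4
import Cfsg.Agent.Lib.Helper28.Mult.HeMAC5
import Cfsg.Agent.Lib.Helper28.Mult.HeMAC6
import Cfsg.Agent.Lib.Helper28.Mult.HeMAC7
import Cfsg.Agent.Lib.Helper28.Mult.HeMAC8
import Cfsg.Agent.Lib.Helper28.Mult.HeMAC9
import Cfsg.Agent.Lib.Helper28.Mult.HeMAC10
import Cfsg.Agent.Lib.Helper28.Mult.HeMAC11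
import Cfsg.Agent.Lib.Helper28.Mult.HeMAC12
import Cfsg.Agent.Lib.Helper28.Mult.HeMAC13
import Cfsg.Agent.Lib.Helper28.Mult.HeMAC14

set_option autoImplicit false
set_option maxRecDepth 100000

namespace Cfsg.Agent.Lib.Helper28.V2.HeMA

open Cfsg.Agent.Lib.Helper28

theorem check_all : ∀ c < D.m, D.checkLabel c = true := by
  intro c hc
  have hc' : c < 37476 := hc
  by_cases h0 : c < 3839
  · exact chkF_0 c (by omega) (by omega)
  by_cases h1 : c < 6261
  · exact chkF_1 c (by omega) (by omega)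
  by_cases h2 : c < 8215
  · exact chkF_2 c (by omega) (by omega)
  by_cases h3 : c < 10304
  · exact chkF_3 c (by omega) (by omega)
  by_cases h4 : c < 12160
  · exact chkF_4 c (by omega) (by omega)
  by_cases h5 : c < 14003
  · exact chkF_5 c (by omega) (by omega)
  by_cases h6 : c < 16409
  · exact chkF_6 c (by omega) (by omega)
  by_cases h7 : c < 18440
  · exact chkF_7 c (by omega) (by omega)
  by_cases h8 : c < 21206
  · exact chkF_8 c (by omega) (by omega)
  by_cases h9 : c < 23852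
  · exact chkF_9 c (by omega) (by omega)
  by_cases h10 : c < 26311
  · exact chkF_10 c (by omega) (by omega)
  by_cases h11 : c < 29369
  · exact chkF_11 c (by omega) (by omega)
  by_cases h12 : c < 32180
  · exact chkF_12 c (by omega) (by omega)
  by_cases h13 : c < 34892
  · exact chkF_13 c (by omega) (by omega)
  by_cases h14 : c < 37476
  · exact chkF_14 c (by omega) (by omega)
  omega
theorem pairs_ok : pairsC.all (pairOK (relsAll relsL invL 27) invL 26 27) = true := by decide +kernel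
theorem relsK_ok : ∀ r ∈ relsAll relsL invL 27, ∀ y ∈ r, y < 27 := by decide +kernel
theorem relsL_lt : ∀ r ∈ relsL, ∀ y ∈ r, y < 26 := by decide +kernel
theorem relsL_map : relsL.map (fun r => r.map ren) = W := by decide +kernel
theorem dpairs_ok : D.pairs = pairsC.map Prod.fst := by decide +kernel
theorem fin_all : allBelow D.finalLabel 37476 = true := by decide +kernel
theorem live_count : D.liveCount = 4116 := by decide +kernel
theorem h0_ok : D.tg D.K 0 = 0 := by decide +kernel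
theorem ok : Lk.OK W oinv Cfsg.Agent.Lib.Helper28.Mult.HeM.C.K [0, 1, 2, 3, 4, 5, 6, 7, 8, 9, 10, 11, 12, 13] [14, 15, 16, 17, 18, 19, 20, 21, 22, 23, 24, 25] where
  Kall := rfl
  invK := by decide +kernel
  invE := rfl
  relsIn := by
    intro r hr
    refine ⟨relsL_lt r hr, ?_⟩
    rw [← relsL_map]
    exact List.mem_map_of_mem (f := fun r => r.map ren) hr
  Dpairs := dpairs_ok
  pairs := pairs_ok
  relsK := relsK_ok
  isSub := by
    intro x hx
    have hx' : subL.contains x = true := hx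
    show x ∈ subL
    simpa using hx'
  sub := by decide +kernel
  check := check_all
  gens := by decide +kernel
  hm := by decide
  h0 := h0_ok
  fin := allBelow_iff.mp fin_all
  count := live_count

theorem card_le {Γ : Type*} [Group Γ] (g : ℕ → Γ) (hW : ∀ t, evalW (Cfsg.Agent.Lib.Helper28.Mult.HeM.C.val g) (Cfsg.Agent.Lib.Helper28.Mult.HeM.C.word t) = 1)
    (hB : Finite (Sg (Cfsg.Agent.Lib.Helper28.Mult.HeM.C.val g) [14, 15, 16, 17, 18, 19, 20, 21, 22, 23, 24, 25])) :
    Finite (Sg (Cfsg.Agent.Lib.Helper28.Mult.HeM.C.val g) [0, 1, 2, 3, 4, 5, 6, 7, 8, 9, 10, 11, 12, 13]) ∧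
      Nat.card (Sg (Cfsg.Agent.Lib.Helper28.Mult.HeM.C.val g) [0, 1, 2, 3, 4, 5, 6, 7, 8, 9, 10, 11, 12, 13]) ≤ 4116 * Nat.card (Sg (Cfsg.Agent.Lib.Helper28.Mult.HeM.C.val g) [14, 15, 16, 17, 18, 19, 20, 21, 22, 23, 24, 25]) :=
  ok.card_le _ (by
    intro w hw
    obtain ⟨t, _, rfl⟩ := List.mem_map.mp hw
    exact hW t) (fun y _ => Cov.val_oinv g y) hB

end Cfsg.Agent.Lib.Helper28.V2.HeMA
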