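import Cfsg.Agent.Lib.Helper28.Mult.HeMBData

set_option autoImplicit false
set_option maxRecDepth 100000

namespace Cfsg.Agent.Lib.Helper28.V2.HeMB

open Cfsg.Agent.Lib.Helper28

theorem chk_120 : allRange D.checkLabel 12180 174 = true := by decide +kernel
theorem chk_121 : allRange D.checkLabel 12354 136 = true := by decide +kernel
theorem chk_122 : allRange D.checkLabel 12490 182 = true := by decide +kernel
theorem chk_123 : allRange D.checkLabel 12672 171 = true := by decide +kernel
theorem chk_124 : allRange D.checkLabel 12843 100 = true := by decide +kernel
theorem chk_125 : allRange D.checkLabel 12943 104 = true := by decide +kernel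
theorem chk_126 : allRange D.checkLabel 13047 109 = true := by decide +kernel
theorem chk_127 : allRange D.checkLabel 13156 106 = true := by decide +kernel
theorem chk_128 : allRange D.checkLabel 13262 119 = true := by decide +kernel
theorem chk_129 : allRange D.checkLabel 13381 129 = true := by decide +kernel
theorem chk_130 : allRange D.checkLabel 13510 148 = true := by decide +kernel
theorem chk_131 : allRange D.checkLabel 13658 173 = true := by decide +kernel
theorem chkF_10 : ∀ c, 12180 ≤ c → c < 13831 → D.checkLabel c = true := by
  intro c h1 h2
  by_cases h120 : c < 12354
  · exact allRange_iff.mp chk_120 c (by omega) (by omega)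
  by_cases h121 : c < 12490
  · exact allRange_iff.mp chk_121 c (by omega) (by omega)
  by_cases h122 : c < 12672
  · exact allRange_iff.mp chk_122 c (by omega) (by omega)
  by_cases h123 : c < 12843
  · exact allRange_iff.mp chk_123 c (by omega) (by omega)
  by_cases h124 : c < 12943
  · exact allRange_iff.mp chk_124 c (by omega) (by omega)
  by_cases h125 : c < 13047
  · exact allRange_iff.mp chk_125 c (by omega) (by omega)
  by_cases h126 : c < 13156
  · exact allRange_iff.mp chk_126 c (by omega) (by omega)
  by_cases h127 : c < 13262
  · exact allRange_iff.mp chk_127 c (by omega) (by omega)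
  by_cases h128 : c < 13381
  · exact allRange_iff.mp chk_128 c (by omega) (by omega)
  by_cases h129 : c < 13510
  · exact allRange_iff.mp chk_129 c (by omega) (by omega)
  by_cases h130 : c < 13658
  · exact allRange_iff.mp chk_130 c (by omega) (by omega)
  by_cases h131 : c < 13831
  · exact allRange_iff.mp chk_131 c (by omega) (by omega)
  omega

end Cfsg.Agent.Lib.Helper28.V2.HeMB
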