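import Cfsg.Agent.Lib.Helper28.Mult.HeMBData

set_option autoImplicit false
set_option maxRecDepth 100000

namespace Cfsg.Agent.Lib.Helper28.V2.HeMB

open Cfsg.Agent.Lib.Helper28

theorem chk_144 : allRange D.checkLabel 16105 155 = true := by decide +kernel
theorem chk_145 : allRange D.checkLabel 16260 238 = true := by decide +kernel
theorem chk_146 : allRange D.checkLabel 16498 108 = true := by decide +kernel
theorem chkF_12 : ∀ c, 16105 ≤ c → c < 16606 → D.checkLabel c = true := by
  intro c h1 h2
  by_cases h144 : c < 16260
  · exact allRange_iff.mp chk_144 c (by omega) (by omega)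
  by_cases h145 : c < 16498
  · exact allRange_iff.mp chk_145 c (by omega) (by omega)
  by_cases h146 : c < 16606
  · exact allRange_iff.mp chk_146 c (by omega) (by omega)
  omega

end Cfsg.Agent.Lib.Helper28.V2.HeMB
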