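import Cfsg.Agent.Lib.Helper28.Mult.HeMBData

set_option autoImplicit false
set_option maxRecDepth 100000

namespace Cfsg.Agent.Lib.Helper28.V2.HeMB

open Cfsg.Agent.Lib.Helper28

theorem chk_36 : allRange D.checkLabel 2090 62 = true := by decide +kernel
theorem chk_37 : allRange D.checkLabel 2152 78 = true := by decide +kernel
theorem chk_38 : allRange D.checkLabel 2230 84 = true := by decide +kernel
theorem chk_39 : allRange D.checkLabel 2314 63 = true := by decide +kernel
theorem chk_40 : allRange D.checkLabel 2377 88 = true := by decide +kernel
theorem chk_41 : allRange D.checkLabel 2465 67 = true := by decide +kernel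
theorem chk_42 : allRange D.checkLabel 2532 65 = true := by decide +kernel
theorem chk_43 : allRange D.checkLabel 2597 107 = true := by decide +kernel
theorem chk_44 : allRange D.checkLabel 2704 88 = true := by decide +kernel
theorem chk_45 : allRange D.checkLabel 2792 82 = true := by decide +kernel
theorem chk_46 : allRange D.checkLabel 2874 85 = true := by decide +kernel
theorem chk_47 : allRange D.checkLabel 2959 92 = true := by decide +kernel
theorem chkF_3 : ∀ c, 2090 ≤ c → c < 3051 → D.checkLabel c = true := by
  intro c h1 h2
  by_cases h36 : c < 2152
  · exact allRange_iff.mp chk_36 c (by omega) (by omega)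
  by_cases h37 : c < 2230
  · exact allRange_iff.mp chk_37 c (by omega) (by omega)
  by_cases h38 : c < 2314
  · exact allRange_iff.mp chk_38 c (by omega) (by omega)
  by_cases h39 : c < 2377
  · exact allRange_iff.mp chk_39 c (by omega) (by omega)
  by_cases h40 : c < 2465
  · exact allRange_iff.mp chk_40 c (by omega) (by omega)
  by_cases h41 : c < 2532
  · exact allRange_iff.mp chk_41 c (by omega) (by omega)
  by_cases h42 : c < 2597
  · exact allRange_iff.mp chk_42 c (by omega) (by omega)
  by_cases h43 : c < 2704
  · exact allRange_iff.mp chk_43 c (by omega) (by omega)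
  by_cases h44 : c < 2792
  · exact allRange_iff.mp chk_44 c (by omega) (by omega)
  by_cases h45 : c < 2874
  · exact allRange_iff.mp chk_45 c (by omega) (by omega)
  by_cases h46 : c < 2959
  · exact allRange_iff.mp chk_46 c (by omega) (by omega)
  by_cases h47 : c < 3051
  · exact allRange_iff.mp chk_47 c (by omega) (by omega)
  omega

end Cfsg.Agent.Lib.Helper28.V2.HeMB
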