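import Cfsg.Agent.Lib.Helper28.Mult.HeMBData

set_option autoImplicit false
set_option maxRecDepth 100000

namespace Cfsg.Agent.Lib.Helper28.V2.HeMB

open Cfsg.Agent.Lib.Helper28

theorem chk_48 : allRange D.checkLabel 3051 92 = true := by decide +kernel
theorem chk_49 : allRange D.checkLabel 3143 96 = true := by decide +kernel
theorem chk_50 : allRange D.checkLabel 3239 92 = true := by decide +kernel
theorem chk_51 : allRange D.checkLabel 3331 73 = true := by decide +kernel
theorem chk_52 : allRange D.checkLabel 3404 85 = true := by decide +kernel
theorem chk_53 : allRange D.checkLabel 3489 75 = true := by decide +kernel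
theorem chk_54 : allRange D.checkLabel 3564 93 = true := by decide +kernel
theorem chk_55 : allRange D.checkLabel 3657 145 = true := by decide +kernel
theorem chk_56 : allRange D.checkLabel 3802 93 = true := by decide +kernel
theorem chk_57 : allRange D.checkLabel 3895 124 = true := by decide +kernel
theorem chk_58 : allRange D.checkLabel 4019 73 = true := by decide +kernel
theorem chk_59 : allRange D.checkLabel 4092 88 = true := by decide +kernel
theorem chkF_4 : ∀ c, 3051 ≤ c → c < 4180 → D.checkLabel c = true := by
  intro c h1 h2
  by_cases h48 : c < 3143
  · exact allRange_iff.mp chk_48 c (by omega) (by omega)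
  by_cases h49 : c < 3239
  · exact allRange_iff.mp chk_49 c (by omega) (by omega)
  by_cases h50 : c < 3331
  · exact allRange_iff.mp chk_50 c (by omega) (by omega)
  by_cases h51 : c < 3404
  · exact allRange_iff.mp chk_51 c (by omega) (by omega)
  by_cases h52 : c < 3489
  · exact allRange_iff.mp chk_52 c (by omega) (by omega)
  by_cases h53 : c < 3564
  · exact allRange_iff.mp chk_53 c (by omega) (by omega)
  by_cases h54 : c < 3657
  · exact allRange_iff.mp chk_54 c (by omega) (by omega)
  by_cases h55 : c < 3802
  · exact allRange_iff.mp chk_55 c (by omega) (by omega)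
  by_cases h56 : c < 3895
  · exact allRange_iff.mp chk_56 c (by omega) (by omega)
  by_cases h57 : c < 4019
  · exact allRange_iff.mp chk_57 c (by omega) (by omega)
  by_cases h58 : c < 4092
  · exact allRange_iff.mp chk_58 c (by omega) (by omega)
  by_cases h59 : c < 4180
  · exact allRange_iff.mp chk_59 c (by omega) (by omega)
  omega

end Cfsg.Agent.Lib.Helper28.V2.HeMB
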