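import Cfsg.Agent.Lib.Helper28.Mult.HeMBData

set_option autoImplicit false
set_option maxRecDepth 100000

namespace Cfsg.Agent.Lib.Helper28.V2.HeMB

open Cfsg.Agent.Lib.Helper28

theorem chk_60 : allRange D.checkLabel 4180 107 = true := by decide +kernel
theorem chk_61 : allRange D.checkLabel 4287 123 = true := by decide +kernel
theorem chk_62 : allRange D.checkLabel 4410 65 = true := by decide +kernel
theorem chk_63 : allRange D.checkLabel 4475 94 = true := by decide +kernel
theorem chk_64 : allRange D.checkLabel 4569 106 = true := by decide +kernel
theorem chk_65 : allRange D.checkLabel 4675 173 = true := by decide +kernel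
theorem chk_66 : allRange D.checkLabel 4848 143 = true := by decide +kernel
theorem chk_67 : allRange D.checkLabel 4991 107 = true := by decide +kernel
theorem chk_68 : allRange D.checkLabel 5098 82 = true := by decide +kernel
theorem chk_69 : allRange D.checkLabel 5180 68 = true := by decide +kernel
theorem chk_70 : allRange D.checkLabel 5248 98 = true := by decide +kernel
theorem chk_71 : allRange D.checkLabel 5346 112 = true := by decide +kernel
theorem chkF_5 : ∀ c, 4180 ≤ c → c < 5458 → D.checkLabel c = true := by
  intro c h1 h2
  by_cases h60 : c < 4287
  · exact allRange_iff.mp chk_60 c (by omega) (by omega)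
  by_cases h61 : c < 4410
  · exact allRange_iff.mp chk_61 c (by omega) (by omega)
  by_cases h62 : c < 4475
  · exact allRange_iff.mp chk_62 c (by omega) (by omega)
  by_cases h63 : c < 4569
  · exact allRange_iff.mp chk_63 c (by omega) (by omega)
  by_cases h64 : c < 4675
  · exact allRange_iff.mp chk_64 c (by omega) (by omega)
  by_cases h65 : c < 4848
  · exact allRange_iff.mp chk_65 c (by omega) (by omega)
  by_cases h66 : c < 4991
  · exact allRange_iff.mp chk_66 c (by omega) (by omega)
  by_cases h67 : c < 5098
  · exact allRange_iff.mp chk_67 c (by omega) (by omega)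
  by_cases h68 : c < 5180
  · exact allRange_iff.mp chk_68 c (by omega) (by omega)
  by_cases h69 : c < 5248
  · exact allRange_iff.mp chk_69 c (by omega) (by omega)
  by_cases h70 : c < 5346
  · exact allRange_iff.mp chk_70 c (by omega) (by omega)
  by_cases h71 : c < 5458
  · exact allRange_iff.mp chk_71 c (by omega) (by omega)
  omega

end Cfsg.Agent.Lib.Helper28.V2.HeMB
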