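import Cfsg.Agent.Lib.Helper28.Mult.HeMBData

set_option autoImplicit false
set_option maxRecDepth 100000

namespace Cfsg.Agent.Lib.Helper28.V2.HeMB

open Cfsg.Agent.Lib.Helper28

theorem chk_72 : allRange D.checkLabel 5458 90 = true := by decide +kernel
theorem chk_73 : allRange D.checkLabel 5548 99 = true := by decide +kernel
theorem chk_74 : allRange D.checkLabel 5647 113 = true := by decide +kernel
theorem chk_75 : allRange D.checkLabel 5760 169 = true := by decide +kernel
theorem chk_76 : allRange D.checkLabel 5929 102 = true := by decide +kernel
theorem chk_77 : allRange D.checkLabel 6031 109 = true := by decide +kernel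
theorem chk_78 : allRange D.checkLabel 6140 122 = true := by decide +kernel
theorem chk_79 : allRange D.checkLabel 6262 149 = true := by decide +kernel
theorem chk_80 : allRange D.checkLabel 6411 108 = true := by decide +kernel
theorem chk_81 : allRange D.checkLabel 6519 124 = true := by decide +kernel
theorem chk_82 : allRange D.checkLabel 6643 136 = true := by decide +kernel
theorem chk_83 : allRange D.checkLabel 6779 92 = true := by decide +kernel
theorem chkF_6 : ∀ c, 5458 ≤ c → c < 6871 → D.checkLabel c = true := by
  intro c h1 h2
  by_cases h72 : c < 5548
  · exact allRange_iff.mp chk_72 c (by omega) (by omega)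
  by_cases h73 : c < 5647
  · exact allRange_iff.mp chk_73 c (by omega) (by omega)
  by_cases h74 : c < 5760
  · exact allRange_iff.mp chk_74 c (by omega) (by omega)
  by_cases h75 : c < 5929
  · exact allRange_iff.mp chk_75 c (by omega) (by omega)
  by_cases h76 : c < 6031
  · exact allRange_iff.mp chk_76 c (by omega) (by omega)
  by_cases h77 : c < 6140
  · exact allRange_iff.mp chk_77 c (by omega) (by omega)
  by_cases h78 : c < 6262
  · exact allRange_iff.mp chk_78 c (by omega) (by omega)
  by_cases h79 : c < 6411
  · exact allRange_iff.mp chk_79 c (by omega) (by omega)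
  by_cases h80 : c < 6519
  · exact allRange_iff.mp chk_80 c (by omega) (by omega)
  by_cases h81 : c < 6643
  · exact allRange_iff.mp chk_81 c (by omega) (by omega)
  by_cases h82 : c < 6779
  · exact allRange_iff.mp chk_82 c (by omega) (by omega)
  by_cases h83 : c < 6871
  · exact allRange_iff.mp chk_83 c (by omega) (by omega)
  omega

end Cfsg.Agent.Lib.Helper28.V2.HeMB
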