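import Cfsg.Agent.Lib.Helper28.Mult.HeMBData

set_option autoImplicit false
set_option maxRecDepth 100000

namespace Cfsg.Agent.Lib.Helper28.V2.HeMB

open Cfsg.Agent.Lib.Helper28

theorem chk_84 : allRange D.checkLabel 6871 96 = true := by decide +kernel
theorem chk_85 : allRange D.checkLabel 6967 100 = true := by decide +kernel
theorem chk_86 : allRange D.checkLabel 7067 70 = true := by decide +kernel
theorem chk_87 : allRange D.checkLabel 7137 79 = true := by decide +kernel
theorem chk_88 : allRange D.checkLabel 7216 92 = true := by decide +kernel
theorem chk_89 : allRange D.checkLabel 7308 92 = true := by decide +kernel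
theorem chk_90 : allRange D.checkLabel 7400 112 = true := by decide +kernel
theorem chk_91 : allRange D.checkLabel 7512 113 = true := by decide +kernel
theorem chk_92 : allRange D.checkLabel 7625 149 = true := by decide +kernel
theorem chk_93 : allRange D.checkLabel 7774 187 = true := by decide +kernel
theorem chk_94 : allRange D.checkLabel 7961 190 = true := by decide +kernel
theorem chk_95 : allRange D.checkLabel 8151 129 = true := by decide +kernel
theorem chkF_7 : ∀ c, 6871 ≤ c → c < 8280 → D.checkLabel c = true := by
  intro c h1 h2
  by_cases h84 : c < 6967
  · exact allRange_iff.mp chk_84 c (by omega) (by omega)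
  by_cases h85 : c < 7067
  · exact allRange_iff.mp chk_85 c (by omega) (by omega)
  by_cases h86 : c < 7137
  · exact allRange_iff.mp chk_86 c (by omega) (by omega)
  by_cases h87 : c < 7216
  · exact allRange_iff.mp chk_87 c (by omega) (by omega)
  by_cases h88 : c < 7308
  · exact allRange_iff.mp chk_88 c (by omega) (by omega)
  by_cases h89 : c < 7400
  · exact allRange_iff.mp chk_89 c (by omega) (by omega)
  by_cases h90 : c < 7512
  · exact allRange_iff.mp chk_90 c (by omega) (by omega)
  by_cases h91 : c < 7625
  · exact allRange_iff.mp chk_91 c (by omega) (by omega)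
  by_cases h92 : c < 7774
  · exact allRange_iff.mp chk_92 c (by omega) (by omega)
  by_cases h93 : c < 7961
  · exact allRange_iff.mp chk_93 c (by omega) (by omega)
  by_cases h94 : c < 8151
  · exact allRange_iff.mp chk_94 c (by omega) (by omega)
  by_cases h95 : c < 8280
  · exact allRange_iff.mp chk_95 c (by omega) (by omega)
  omega

end Cfsg.Agent.Lib.Helper28.V2.HeMB
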