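import Cfsg.Agent.Lib.Helper28.Mult.HeMBData

set_option autoImplicit false
set_option maxRecDepth 100000

namespace Cfsg.Agent.Lib.Helper28.V2.HeMB

open Cfsg.Agent.Lib.Helper28

theorem chk_96 : allRange D.checkLabel 8280 160 = true := by decide +kernel
theorem chk_97 : allRange D.checkLabel 8440 151 = true := by decide +kernel
theorem chk_98 : allRange D.checkLabel 8591 109 = true := by decide +kernel
theorem chk_99 : allRange D.checkLabel 8700 109 = true := by decide +kernel
theorem chk_100 : allRange D.checkLabel 8809 105 = true := by decide +kernel
theorem chk_101 : allRange D.checkLabel 8914 149 = true := by decide +kernel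
theorem chk_102 : allRange D.checkLabel 9063 170 = true := by decide +kernel
theorem chk_103 : allRange D.checkLabel 9233 211 = true := by decide +kernel
theorem chk_104 : allRange D.checkLabel 9444 170 = true := by decide +kernel
theorem chk_105 : allRange D.checkLabel 9614 190 = true := by decide +kernel
theorem chk_106 : allRange D.checkLabel 9804 211 = true := by decide +kernel
theorem chk_107 : allRange D.checkLabel 10015 208 = true := by decide +kernel
theorem chkF_8 : ∀ c, 8280 ≤ c → c < 10223 → D.checkLabel c = true := by
  intro c h1 h2
  by_cases h96 : c < 8440
  · exact allRange_iff.mp chk_96 c (by omega) (by omega)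
  by_cases h97 : c < 8591
  · exact allRange_iff.mp chk_97 c (by omega) (by omega)
  by_cases h98 : c < 8700
  · exact allRange_iff.mp chk_98 c (by omega) (by omega)
  by_cases h99 : c < 8809
  · exact allRange_iff.mp chk_99 c (by omega) (by omega)
  by_cases h100 : c < 8914
  · exact allRange_iff.mp chk_100 c (by omega) (by omega)
  by_cases h101 : c < 9063
  · exact allRange_iff.mp chk_101 c (by omega) (by omega)
  by_cases h102 : c < 9233
  · exact allRange_iff.mp chk_102 c (by omega) (by omega)
  by_cases h103 : c < 9444
  · exact allRange_iff.mp chk_103 c (by omega) (by omega)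
  by_cases h104 : c < 9614
  · exact allRange_iff.mp chk_104 c (by omega) (by omega)
  by_cases h105 : c < 9804
  · exact allRange_iff.mp chk_105 c (by omega) (by omega)
  by_cases h106 : c < 10015
  · exact allRange_iff.mp chk_106 c (by omega) (by omega)
  by_cases h107 : c < 10223
  · exact allRange_iff.mp chk_107 c (by omega) (by omega)
  omega

end Cfsg.Agent.Lib.Helper28.V2.HeMB
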