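import Cfsg.Agent.Lib.Helper28.Mult.HeMCData

set_option autoImplicit false
set_option maxRecDepth 100000

namespace Cfsg.Agent.Lib.Helper28.V2.HeMC

open Cfsg.Agent.Lib.Helper28

theorem chk_36 : allRange D.checkLabel 54000 1500 = true := by decide +kernel
theorem chk_37 : allRange D.checkLabel 55500 1500 = true := by decide +kernel
theorem chk_38 : allRange D.checkLabel 57000 1500 = true := by decide +kernel
theorem chk_39 : allRange D.checkLabel 58500 210 = true := by decide +kernel
theorem chkF_3 : ∀ c, 54000 ≤ c → c < 58710 → D.checkLabel c = true := by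
  intro c h1 h2
  by_cases h36 : c < 55500
  · exact allRange_iff.mp chk_36 c (by omega) (by omega)
  by_cases h37 : c < 57000
  · exact allRange_iff.mp chk_37 c (by omega) (by omega)
  by_cases h38 : c < 58500
  · exact allRange_iff.mp chk_38 c (by omega) (by omega)
  by_cases h39 : c < 58710
  · exact allRange_iff.mp chk_39 c (by omega) (by omega)
  omega

end Cfsg.Agent.Lib.Helper28.V2.HeMC
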