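import Cfsg.Agent.Lib.Helper28.Mult.Cover
import Cfsg.Agent.Lib.Helper66.SchurMain

/-!
# Stem extensions and covering presentations (helper28)
-/

set_option autoImplicit false

namespace Cfsg.Agent.Lib.Helper28

variable {Γ G : Type*} [Group Γ] [Group G]

/-- commutators only depend on the images in a central quotient -/
theorem comm_mem_of_lifts (σ : Γ →* G) (hc : σ.ker ≤ Subgroup.center Γ) (S : Subgroup Γ) (p q p1 q1 : Γ)
    (hp1 : p1 ∈ S) (hq1 : q1 ∈ S) (hp : σ p1 = σ p) (hq : σ q1 = σ q) : p⁻¹ * q⁻¹ * p * q ∈ S := by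
  have key : ∀ a b : Γ, σ a = σ b → ∃ k ∈ Subgroup.center Γ, b = a * k := by
    intro a b hab
    refine ⟨a⁻¹ * b, hc ?_, by group⟩
    rw [MonoidHom.mem_ker, map_mul, map_inv, hab, inv_mul_cancel]
  obtain ⟨k, hk, rfl⟩ := key p1 p hp
  obtain ⟨l, hl, rfl⟩ := key q1 q hq
  have e : (p1 * k)⁻¹ * (q1 * l)⁻¹ * (p1 * k) * (q1 * l) = p1⁻¹ * q1⁻¹ * p1 * q1 := by
    have hk' := Subgroup.mem_center_iff.mp hk
    have hl' := Subgroup.mem_center_iff.mp hl
    calc (p1 * k)⁻¹ * (q1 * l)⁻¹ * (p1 * k) * (q1 * l)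
        = k⁻¹ * p1⁻¹ * (l⁻¹ * q1⁻¹) * p1 * (k * q1) * l := by group
      _ = k⁻¹ * p1⁻¹ * (l⁻¹ * q1⁻¹) * p1 * (q1 * k) * l := by rw [hk' q1]
      _ = k⁻¹ * (p1⁻¹ * l⁻¹ * q1⁻¹ * p1 * q1 * k) * l := by group
      _ = k⁻¹ * (k * (p1⁻¹ * l⁻¹ * q1⁻¹ * p1 * q1)) * l := by rw [hk' _]
      _ = p1⁻¹ * l⁻¹ * (q1⁻¹ * p1 * q1 * l) := by group
      _ = p1⁻¹ * l⁻¹ * (l * (q1⁻¹ * p1 * q1)) := by rw [hl' _]
      _ = _ := by group
  rw [e]
  exact S.mul_mem (S.mul_mem (S.mul_mem (S.inv_mem hp1) (S.inv_mem hq1)) hp1) hq1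

namespace Cov

variable {C : Cov}

/-- a generator defined as a commutator lies in every subgroup covering the two entries -/
theorem tau_mem (σ : Γ →* G) (hc : σ.ker ≤ Subgroup.center Γ) (g : ℕ → Γ)
    (hW : ∀ t, evalW (C.val g) (C.word t) = 1) (S : Subgroup Γ) (x j : ℕ) (P Q : List ℕ)
    (hx : C.nrm x = [2 * C.n + 2 * j + 1])
    (hrel : C.rel j = invW P ++ invW Q ++ P ++ Q ++ [2 * x + 1])
    (p1 q1 : Γ) (hp1 : p1 ∈ S) (hq1 : q1 ∈ S) (hp : σ p1 = σ (evalW (bval g) P))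
    (hq : σ q1 = σ (evalW (bval g) Q)) : g x ∈ S := by
  have h1 := hW (3, x, 0)
  have h2 : evalW (C.val g) (C.nrm x) = 1 := h1
  rw [hx, evalW_cons, evalW_nil, mul_one, val_neg, inv_eq_one, hrel, evalW_append, evalW_append,
    evalW_append, evalW_append, evalW_invW (bval_oinv g), evalW_invW (bval_oinv g), evalW_cons, evalW_nil,
    mul_one] at h2
  have h3 : bval g (2 * x + 1) = (g x)⁻¹ := by
    unfold bval
    rw [if_neg (by omega)]
    congr 2
    omega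
  rw [h3, mul_inv_eq_one] at h2
  rw [← h2]
  exact comm_mem_of_lifts σ hc S _ _ p1 q1 hp1 hq1 hp hq

theorem val_two_mul (g : ℕ → Γ) {x : ℕ} (hx : x < C.n) : C.val g (2 * x) = g x := by
  rw [val_lt g (by omega)]
  unfold bval
  rw [if_pos (by omega)]
  congr 1
  omega

theorem val_two_mul_add_one (g : ℕ → Γ) {x : ℕ} (hx : x < C.n) : C.val g (2 * x + 1) = (g x)⁻¹ := by
  rw [val_lt g (by omega)]
  unfold bval
  rw [if_neg (by omega)]
  congr 2
  omega

end Cov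

/-- a surjection from a group which is not bigger is injective -/
theorem ker_eq_bot_of_card_le [Finite Γ] (σ : Γ →* G) (hs : Function.Surjective σ)
    (h : Nat.card Γ ≤ Nat.card G) : σ.ker = ⊥ := by
  have : Finite G := Finite.of_surjective σ hs
  have hb : Function.Bijective σ := by
    rw [Nat.bijective_iff_surjective_and_card]
    exact ⟨hs, le_antisymm h (Nat.card_le_card_of_surjective σ hs)⟩
  exact (MonoidHom.ker_eq_bot_iff σ).mpr hb.1

end Cfsg.Agent.Lib.Helper28
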