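import Cfsg.Agent.Lib.Helper28.Mult.Exist
import Cfsg.Agent.Lib.Helper28.TCLower

set_option autoImplicit false
set_option maxRecDepth 100000

namespace Cfsg.Agent.Lib.Helper28.Mult.SuzE

open Cfsg.Agent.Lib.Helper28

def W0 : List (List ℕ) := [
  [0, 0],
  [2, 2],
  [4, 4],
  [6, 6, 15, 15, 15],
  [8, 8, 15, 15, 15],
  [10, 10],
  [12, 12],
  [0, 2, 0, 2, 0, 2, 0, 2, 0, 2],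
  [0, 4, 0, 4],
  [0, 6, 0, 6, 15, 15, 15],
  [0, 8, 0, 8, 15, 15, 15],
  [0, 10, 0, 10],
  [0, 12, 0, 12],
  [2, 4, 2, 4, 2, 4],
  [2, 6, 2, 6, 15, 15, 15],
  [2, 8, 2, 8, 15, 15, 15],
  [2, 10, 2, 10, 2, 10],
  [2, 12, 2, 12, 2, 12],
  [4, 6, 4, 6, 4, 6, 4, 6, 4, 6, 4, 6, 4, 6, 4, 6],
  [4, 8, 4, 8, 15, 15, 15],
  [4, 10, 4, 10],
  [4, 12, 4, 12],
  [6, 8, 6, 8, 6, 8],
  [6, 10, 6, 10, 15, 15, 15],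
  [6, 12, 6, 12, 15, 15, 15],
  [8, 10, 8, 10, 15, 15, 15],
  [8, 12, 8, 12, 15, 15, 15],
  [10, 12, 10, 12, 10, 12, 10, 12],
  [0, 7, 5, 7, 5, 7, 5, 7, 5],
  [0, 13, 11, 13, 11],
  [0, 2, 4, 10, 0, 2, 4, 10, 0, 2, 4, 10, 0, 2, 4, 10, 0, 2, 4, 10, 15, 15, 15],
  [2, 10, 12, 2, 10, 12, 2, 10, 12, 2, 10, 12, 2, 10, 12, 15, 15, 15, 15],
  [2, 4, 6, 4, 6, 2, 4, 6, 4, 6, 2, 4, 6, 4, 6, 2, 4, 6, 4, 6, 2, 4, 6, 4, 6, 8, 2, 4, 6, 4, 6, 2, 4, 6, 4, 6, 2, 4, 6, 4, 6, 2, 4, 6, 4, 6, 2, 4, 6, 4, 6, 8, 2, 4, 6, 4, 6, 2, 4, 6, 4, 6, 2, 4, 6, 4, 6, 2, 4, 6, 4, 6, 2, 4, 6, 4, 6, 8, 15, 15, 15],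
  [14, 0, 15, 1],
  [14, 2, 15, 3],
  [14, 4, 15, 5],
  [14, 6, 15, 7],
  [14, 8, 15, 9],
  [14, 10, 15, 11],
  [14, 12, 15, 13],
  [14, 14, 14, 14, 14, 14]]
def Vs : List (List ℕ) := [
  [6, 6, 15, 15, 15],
  [8, 8, 15, 15, 15],
  [10, 10],
  [13, 13],
  [5, 1, 5, 1],
  [13, 1, 13, 1],
  [2, 4, 2, 4, 2, 4],
  [11, 3, 11, 3, 11, 3],
  [11, 3, 11, 3, 11, 3],
  [2, 12, 2, 12, 2, 12],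
  [14, 14, 14, 9, 5, 9, 5],
  [6, 12, 6, 12, 15, 15, 15],
  [0, 7, 5, 7, 5, 7, 5, 7, 5],
  [10, 12, 10, 12, 1],
  [10, 12, 10, 12, 1],
  [0, 2, 4, 10, 0, 2, 4, 10, 0, 2, 4, 10, 0, 2, 4, 10, 0, 2, 4, 10, 15, 15, 15],
  [14, 14, 14, 14, 13, 11, 3, 13, 11, 3, 13, 11, 3, 13, 11, 3, 13, 11, 3],
  [14, 14, 14, 14, 14, 14]]

end Cfsg.Agent.Lib.Helper28.Mult.SuzE
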