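import Cfsg.Agent.Lib.Helper28.Mult.SuzE3C0

set_option autoImplicit false
set_option maxRecDepth 100000

namespace Cfsg.Agent.Lib.Helper28.Mult.SuzE3

open Cfsg.Agent.Lib.Helper28

theorem lrel_all : ∀ w ∈ Cfsg.Agent.Lib.Helper28.Mult.SuzE.W0, ∀ c < L.n, L.checkRel w c = true := by
  intro w hw c hc
  have hc' : c < 5346 := hc
  by_cases h0 : c < 5346
  · exact lrelF_0 w hw c (by omega) (by omega)
  omega
theorem point_ok : allBelow L.checkPoint 5346 = true := by decide +kernel
theorem tree_ok : allBelow L.checkTree 5346 = true := by decide +kernel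
theorem valid : L.Valid where
  invK := by
    intro x hx
    have hx' : x < 16 := hx
    interval_cases x <;> exact ⟨by decide, rfl⟩
  point := allBelow_iff.mp point_ok
  tree := allBelow_iff.mp tree_ok

end Cfsg.Agent.Lib.Helper28.Mult.SuzE3
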