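import Cfsg.Agent.Lib.Helper28.Mult.SuzE3Data

set_option autoImplicit false
set_option maxRecDepth 100000

namespace Cfsg.Agent.Lib.Helper28.Mult.SuzE3

open Cfsg.Agent.Lib.Helper28

theorem lrel_0 : allRange (fun c => allList (fun w => L.checkRel w c) Cfsg.Agent.Lib.Helper28.Mult.SuzE.W0) 0 2700 = true := by decide +kernel
theorem lrel_1 : allRange (fun c => allList (fun w => L.checkRel w c) Cfsg.Agent.Lib.Helper28.Mult.SuzE.W0) 2700 2646 = true := by decide +kernel
theorem lrelF_0 : ∀ w ∈ Cfsg.Agent.Lib.Helper28.Mult.SuzE.W0, ∀ c, 0 ≤ c → c < 5346 → L.checkRel w c = true := by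
  intro w hw c h1 h2
  by_cases h0 : c < 2700
  · exact allList_iff.mp (allRange_iff.mp lrel_0 c (by omega) (by omega)) w hw
  by_cases h1 : c < 5346
  · exact allList_iff.mp (allRange_iff.mp lrel_1 c (by omega) (by omega)) w hw
  omega

end Cfsg.Agent.Lib.Helper28.Mult.SuzE3
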