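import Cfsg.Agent.Lib.Helper28.Mult.SuzMain
import Cfsg.Agent.Lib.Helper28.Mult.SuzE2
import Cfsg.Agent.Lib.Helper28.Mult.SuzE3
import Cfsg.Agent.Lib.Helper28.Embed

/-!
# The Schur multiplier of the presented Suzuki group is cyclic of order 6 (helper28)
-/

set_option autoImplicit false
set_option maxRecDepth 100000

namespace Cfsg.Agent.Lib.Helper28

/-- the value of a word in a table model -/
theorem LB.model_eval {L : LB} (V : L.Valid) (hK : L.K = 16) (hinv : L.inv = oinv) (w : List ℕ)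
    (hw : ∀ y ∈ w, y < 16) :
    evalW (bval (fun i => (LB.perm V (2 * i))⁻¹)) w = evalW (fun x => (LB.perm V x)⁻¹) w := by
  apply Prob.evalW_congr
  intro y hy
  have hy16 := hw y hy
  unfold bval
  beta_reduce
  by_cases hp : y % 2 = 0
  · rw [if_pos hp]
    have : 2 * (y / 2) = y := by omega
    rw [this]
  · rw [if_neg hp, inv_inv]
    have h1 : y = oinv (2 * (y / 2)) := by unfold oinv; rw [if_pos (by omega)]; omega
    have h2 := LB.perm_inv V (x := 2 * (y / 2)) (by rw [hK]; omega)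
    rw [hinv, ← h1] at h2
    rw [h2, inv_inv]

theorem LB.model_ne {L : LB} (V : L.Valid) (w : List ℕ) (hw : ∀ y ∈ w, y < L.K) (c : ℕ) (hc : c < L.n)
    (h : ptrace L.pt w c ≠ c + 1) : evalW (fun x => (LB.perm V x)⁻¹) w ≠ 1 := by
  intro he
  apply h
  have h1 := LB.evalW_perm V w hw c
  rw [he, inv_one, Equiv.Perm.one_apply] at h1
  rw [V.ptrace_eq w hw hc, ← h1]

namespace Mult.SuzE

open Cfsg.Agent.Lib.Helper28.Suz1782

/-- letters of the cover as words in the generators of `Suz` -/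
def tw (l : ℕ) : List ℕ := if l < 14 then [l / 2] else []

noncomputable def γ0 (i : ℕ) : Q.Grp := if i < 7 then Q.val i else 1

theorem val_inv' (x : ℕ) (hx : x < 7) : (Q.val x)⁻¹ = Q.val x := by
  have h := ok.val_inv x hx
  have e : Q.P.inv x = x := by interval_cases x <;> rfl
  rw [e] at h
  exact h.symm

theorem bval_γ0 (l : ℕ) : bval γ0 l = evalW Q.val (tw l) := by
  unfold bval tw γ0
  by_cases h : l < 14
  · rw [if_pos h, if_pos (show l / 2 < 7 by omega), evalW_cons, evalW_nil, mul_one]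
    split_ifs
    · rfl
    · exact val_inv' _ (by omega)
  · rw [if_neg h, if_neg (show ¬ l / 2 < 7 by omega), evalW_nil]
    split_ifs <;> simp

theorem W0_chk : ∀ w ∈ W0, (∀ y ∈ w.flatMap tw, y < 7) ∧
    ∀ b ∈ levels.map Lev.b, ptrace Suz1782.L.pt (w.flatMap tw) b = b + 1 := by decide +kernel

theorem hγ0 : ∀ w ∈ W0, evalW (bval γ0) w = 1 := by
  intro w hw
  have e : evalW (bval γ0) w = evalW Q.val (w.flatMap tw) := by
    rw [← evalW_flatMap]
    exact Prob.evalW_congr (fun y _ => bval_γ0 y)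
  rw [e]
  exact SuzM.word_one _ (W0_chk w hw).1 (W0_chk w hw).2

theorem hWk : ∀ w ∈ W0, ∀ y ∈ w, y < 2 * (7 + 1) := by decide +kernel
theorem hcomm : ∀ x < 7, [2 * 7, 2 * x, 2 * 7 + 1, 2 * x + 1] ∈ W0 := by decide +kernel
theorem hpow : List.replicate 6 (2 * 7) ∈ W0 := by decide +kernel
theorem hVs : ∀ v ∈ Vs, v ∈ W0 ∨ invW v ∈ W0 := by decide +kernel
theorem hVk : ∀ y ∈ Vs.flatten, y < 2 * (7 + 1) := by decide +kernel
theorem hV0 : ∀ i < 7, esum i Vs.flatten = 0 := by decide +kernel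
theorem hV1 : esum 7 Vs.flatten = 1 := by decide +kernel
theorem hsq : ∀ x < 7, [2 * x, 2 * x] ∈ W0 ∨ [2 * x, 2 * x, 15, 15, 15] ∈ W0 := by decide +kernel
theorem hwords : ∀ w ∈ SuzPD.pd.words, w ∈ W0.map (fun w' => w'.flatMap tw) := by decide +kernel

theorem hsurj : Subgroup.closure (γ0 '' {i | i < 7}) = ⊤ := by
  rw [eq_top_iff, ← ok.top]
  apply Subgroup.closure_mono
  rintro _ ⟨x, hx, rfl⟩
  have hx7 : x < 7 := hx
  exact ⟨x, hx7, by unfold γ0; rw [if_pos hx7]⟩

theorem hψ (N : Subgroup (CG (7 + 1) W0)) [N.Normal] (hN : CG.gen (7 + 1) W0 7 ∈ N) :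
    ∃ ψ : Q.Grp →* CG (7 + 1) W0 ⧸ N, ∀ i < 7, ψ (γ0 i) = QuotientGroup.mk' N (CG.gen (7 + 1) W0 i) := by
  let q := QuotientGroup.mk' N
  let v : ℕ → CG (7 + 1) W0 ⧸ N := fun x => q (CG.gen (7 + 1) W0 x)
  have hz : v 7 = 1 := (QuotientGroup.eq_one_iff _).mpr hN
  have hrel : ∀ w ∈ W0, evalW (bval v) w = 1 := by
    intro w hw
    have h := map_evalW_bval q (CG.gen (7 + 1) W0) w
    rw [CG.rel hw, map_one] at h
    exact h.symm
  have b14 : bval v 14 = 1 := by unfold bval; simpa using hz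
  have b15 : bval v 15 = 1 := by unfold bval; simpa using hz
  have hinv : ∀ x < 7, (v x)⁻¹ = v x := by
    intro x hx
    have e0 : bval v (2 * x) = v x := by unfold bval; rw [if_pos (by omega)]; congr 1; omega
    have h2 : v x * v x = 1 := by
      rcases hsq x hx with h | h
      · have := hrel _ h
        simpa [evalW_cons, e0] using this
      · have := hrel _ h
        simpa [evalW_cons, e0, b15] using this
    exact inv_eq_of_mul_eq_one_left h2
  have hb : ∀ l < 16, bval v l = evalW v (tw l) := by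
    intro l hl
    by_cases h : l < 14
    · unfold bval tw
      rw [if_pos h, evalW_cons, evalW_nil, mul_one]
      split_ifs
      · rfl
      · exact hinv _ (by omega)
    · have : l = 14 ∨ l = 15 := by omega
      rcases this with rfl | rfl
      · rw [b14]; rfl
      · rw [b15]; rfl
  have hW : ∀ w ∈ SuzPD.pd.words, evalW v w = 1 := by
    intro w hw
    obtain ⟨w', hw', rfl⟩ := List.mem_map.mp (hwords w hw)
    rw [← evalW_flatMap, ← hrel w' hw']
    exact (Prob.evalW_congr (fun y hy => hb y (hWk w' hw' y hy))).symm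
  obtain ⟨f, hf⟩ := SuzPD.pd_ok.exists_hom SuzPD.pd_wordsK SuzPD.pd_letters v hW (by
    intro x hx
    have hx7 : x < 7 := hx
    have e : SuzPD.pd.inv x = x := by interval_cases x <;> rfl
    rw [e, hinv x hx7])
  refine ⟨f, fun i hi => ?_⟩
  unfold γ0
  rw [if_pos hi, Prob.val_lt (Q := Q) (show i < 7 from hi)]
  exact hf i hi

/-- the model -/
noncomputable def δ (i : ℕ) : Equiv.Perm ℕ × Equiv.Perm ℕ :=
  ((LB.perm SuzE3.valid (2 * i))⁻¹, (LB.perm SuzE2.valid (2 * i))⁻¹)

theorem fst_eval (w : List ℕ) (hw : ∀ y ∈ w, y < 16) :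
    (evalW (bval δ) w).1 = evalW (fun x => (LB.perm SuzE3.valid x)⁻¹) w := by
  have h := map_evalW_bval (MonoidHom.fst (Equiv.Perm ℕ) (Equiv.Perm ℕ)) δ w
  rw [← LB.model_eval SuzE3.valid rfl rfl w hw]
  exact h

theorem snd_eval (w : List ℕ) (hw : ∀ y ∈ w, y < 16) :
    (evalW (bval δ) w).2 = evalW (fun x => (LB.perm SuzE2.valid x)⁻¹) w := by
  have h := map_evalW_bval (MonoidHom.snd (Equiv.Perm ℕ) (Equiv.Perm ℕ)) δ w
  rw [← LB.model_eval SuzE2.valid rfl rfl w hw]
  exact h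

theorem hδ : ∀ w ∈ W0, evalW (bval δ) w = 1 := by
  intro w hw
  apply Prod.ext
  · rw [fst_eval w (hWk w hw)]
    exact LB.evalW_perm_eq_one SuzE3.valid w (hWk w hw) (SuzE3.lrel_all w hw)
  · rw [snd_eval w (hWk w hw)]
    exact LB.evalW_perm_eq_one SuzE2.valid w (hWk w hw) (SuzE2.lrel_all w hw)

theorem ne3 : ∀ d ∈ [1, 2, 4, 5], ptrace SuzE3.L.pt (List.replicate d 14) 0 ≠ 0 + 1 := by decide +kernel
theorem ne2 : ptrace SuzE2.L.pt (List.replicate 3 14) 0 ≠ 0 + 1 := by decide +kernel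

theorem hord : ∀ d, d < 6 → 0 < d → δ 7 ^ d ≠ 1 := by
  intro d hd hd0 hcon
  have e : evalW (bval δ) (List.replicate d 14) = δ 7 ^ d := by
    rw [evalW_replicate]; rfl
  have hl : ∀ y ∈ List.replicate d 14, y < 16 := by
    intro y hy
    rw [List.eq_of_mem_replicate hy]; norm_num
  rw [hcon] at e
  by_cases h3 : d = 3
  · subst h3
    have h := snd_eval _ hl
    rw [e] at h
    exact LB.model_ne SuzE2.valid _ hl 0 (by decide) ne2 h.symm
  · have hm : d ∈ [1, 2, 4, 5] := by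
      interval_cases d <;> simp_all
    have h := fst_eval _ hl
    rw [e] at h
    exact LB.model_ne SuzE3.valid _ hl 0 (by decide) (ne3 d hm) h.symm

/-- the Schur multiplier of the Suzuki group is cyclic of order 6 -/
theorem main : Cfsg.HasCyclicSchurMultiplier Q.Grp 6 := by
  have hfinG : Finite Q.Grp := Nat.finite_of_card_ne_zero (by rw [Suz1782.main.2.1]; norm_num)
  obtain ⟨σ, hfin, hstem, ⟨e⟩⟩ := CG.stem (G := Q.Grp) (n := 7) (m := 6) (W := W0) (by norm_num) hWk hcomm hpow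
    γ0 (by unfold γ0; rw [if_neg (by norm_num)]) hγ0 hsurj (fun N _ hN => hψ N hN) δ hδ hord Vs hVs hVk hV0 hV1
  refine Cfsg.Agent.Lib.Helper66.hasSchurMultiplier_of_card_le σ hstem e ?_
  intro Δ _ _ τ hτ
  have h1 := SuzM.card_le τ hτ
  have h2 : Nat.card Δ = Nat.card Q.Grp * Nat.card τ.ker := by
    rw [Subgroup.card_eq_card_quotient_mul_card_subgroup τ.ker,
      Nat.card_congr (QuotientGroup.quotientKerEquivOfSurjective τ hτ.1).toEquiv]
  rw [h2, Suz1782.main.2.1] at h1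
  have h3 : Nat.card (Multiplicative (ZMod 6)) = 6 := by
    rw [Nat.card_eq_fintype_card]; rfl
  rw [h3]
  have : 448345497600 * Nat.card τ.ker ≤ 448345497600 * 6 := by omega
  exact Nat.le_of_mul_le_mul_left this (by norm_num)

end Mult.SuzE

end Cfsg.Agent.Lib.Helper28
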