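import Cfsg.Agent.Lib.Helper28.Mult.Cover

set_option autoImplicit false
set_option maxRecDepth 100000

namespace Cfsg.Agent.Lib.Helper28.Mult.SuzM

open Cfsg.Agent.Lib.Helper28

def relsC : List (List ℕ) := [
  [0, 0],
  [2, 2],
  [4, 4],
  [6, 6],
  [8, 8],
  [10, 10],
  [12, 12],
  [0, 2, 0, 2, 0, 2, 0, 2, 0, 2],
  [0, 4, 0, 4],
  [0, 6, 0, 6],
  [0, 8, 0, 8],
  [0, 10, 0, 10],
  [0, 12, 0, 12],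
  [2, 4, 2, 4, 2, 4],
  [2, 6, 2, 6],
  [2, 8, 2, 8],
  [2, 10, 2, 10, 2, 10],
  [2, 12, 2, 12, 2, 12],
  [4, 6, 4, 6, 4, 6, 4, 6, 4, 6, 4, 6, 4, 6, 4, 6],
  [4, 8, 4, 8],
  [4, 10, 4, 10],
  [4, 12, 4, 12],
  [6, 8, 6, 8, 6, 8],
  [6, 10, 6, 10],
  [6, 12, 6, 12],
  [8, 10, 8, 10],
  [8, 12, 8, 12],
  [10, 12, 10, 12, 10, 12, 10, 12],
  [0, 7, 5, 7, 5, 7, 5, 7, 5],
  [0, 13, 11, 13, 11],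
  [0, 2, 4, 10, 0, 2, 4, 10, 0, 2, 4, 10, 0, 2, 4, 10, 0, 2, 4, 10],
  [2, 10, 12, 2, 10, 12, 2, 10, 12, 2, 10, 12, 2, 10, 12],
  [2, 4, 6, 4, 6, 2, 4, 6, 4, 6, 2, 4, 6, 4, 6, 2, 4, 6, 4, 6, 2, 4, 6, 4, 6, 8, 2, 4, 6, 4, 6, 2, 4, 6, 4, 6, 2, 4, 6, 4, 6, 2, 4, 6, 4, 6, 2, 4, 6, 4, 6, 8, 2, 4, 6, 4, 6, 2, 4, 6, 4, 6, 2, 4, 6, 4, 6, 2, 4, 6, 4, 6, 2, 4, 6, 4, 6, 8],
  [5, 7, 5, 3, 1, 4, 0, 2, 4, 6, 15],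
  [5, 7, 9, 7, 5, 7, 5, 3, 5, 7, 5, 7, 9, 7, 4, 6, 8, 6, 4, 6, 4, 2, 4, 6, 4, 6, 8, 6, 17],
  [7, 5, 3, 1, 7, 9, 7, 5, 7, 5, 3, 5, 7, 5, 7, 9, 7, 0, 2, 4, 6, 6, 8, 6, 4, 6, 4, 2, 4, 6, 4, 6, 8, 6, 19],
  [25, 25],
  [25, 21, 25, 21, 24, 20],
  [23, 23, 23, 23, 23, 23, 23, 23],
  [25, 23, 25, 23, 23, 21, 22, 22, 22, 24, 20],
  [25, 23, 25, 23, 23, 23, 21, 24, 23, 20, 24, 23, 23]]
def normC : List (List ℕ) := [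
  [30, 30, 32, 32, 82],
  [27, 29, 31, 33, 40, 43, 55, 83],
  [26, 28, 30, 32, 41, 44, 52, 82],
  [26, 26, 26, 29, 31, 31, 31, 31, 33, 33, 33, 33, 33, 41, 43, 45, 46, 53, 53, 55, 63, 65, 71, 82, 90],
  [27, 27, 27, 30, 30, 30, 30, 30, 32, 32, 32, 32, 32, 32, 34, 40, 44, 52, 52, 54, 54, 62, 64, 83, 91],
  [28, 30, 32, 37, 41, 42, 44, 58, 82],
  [27, 27, 29, 37, 38, 40, 61, 85],
  [93],
  [95],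
  [97],
  [101, 104],
  [103, 106],
  [105]]
def C : Cov where
  n := 13
  rels := relsC
  norm := normC

theorem C_ok : C.OK where
  relsK := by decide +kernel
  normK := by decide +kernel
  normLen := rfl
  esum := by decide +kernel

end Cfsg.Agent.Lib.Helper28.Mult.SuzM
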