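import Cfsg.Agent.Lib.Helper28.Mult.SuzMAData

set_option autoImplicit false
set_option maxRecDepth 100000

namespace Cfsg.Agent.Lib.Helper28.V2.SuzMA

open Cfsg.Agent.Lib.Helper28

theorem chk_12 : allRange D.checkLabel 5935 530 = true := by decide +kernel
theorem chk_13 : allRange D.checkLabel 6465 600 = true := by decide +kernel
theorem chk_14 : allRange D.checkLabel 7065 505 = true := by decide +kernel
theorem chk_15 : allRange D.checkLabel 7570 637 = true := by decide +kernel
theorem chk_16 : allRange D.checkLabel 8207 632 = true := by decide +kernel
theorem chk_17 : allRange D.checkLabel 8839 529 = true := by decide +kernel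
theorem chk_18 : allRange D.checkLabel 9368 479 = true := by decide +kernel
theorem chk_19 : allRange D.checkLabel 9847 586 = true := by decide +kernel
theorem chk_20 : allRange D.checkLabel 10433 498 = true := by decide +kernel
theorem chk_21 : allRange D.checkLabel 10931 501 = true := by decide +kernel
theorem chk_22 : allRange D.checkLabel 11432 357 = true := by decide +kernel
theorem chk_23 : allRange D.checkLabel 11789 421 = true := by decide +kernel
theorem chkF_1 : ∀ c, 5935 ≤ c → c < 12210 → D.checkLabel c = true := by
  intro c h1 h2
  by_cases h12 : c < 6465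
  · exact allRange_iff.mp chk_12 c (by omega) (by omega)
  by_cases h13 : c < 7065
  · exact allRange_iff.mp chk_13 c (by omega) (by omega)
  by_cases h14 : c < 7570
  · exact allRange_iff.mp chk_14 c (by omega) (by omega)
  by_cases h15 : c < 8207
  · exact allRange_iff.mp chk_15 c (by omega) (by omega)
  by_cases h16 : c < 8839
  · exact allRange_iff.mp chk_16 c (by omega) (by omega)
  by_cases h17 : c < 9368
  · exact allRange_iff.mp chk_17 c (by omega) (by omega)
  by_cases h18 : c < 9847
  · exact allRange_iff.mp chk_18 c (by omega) (by omega)
  by_cases h19 : c < 10433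
  · exact allRange_iff.mp chk_19 c (by omega) (by omega)
  by_cases h20 : c < 10931
  · exact allRange_iff.mp chk_20 c (by omega) (by omega)
  by_cases h21 : c < 11432
  · exact allRange_iff.mp chk_21 c (by omega) (by omega)
  by_cases h22 : c < 11789
  · exact allRange_iff.mp chk_22 c (by omega) (by omega)
  by_cases h23 : c < 12210
  · exact allRange_iff.mp chk_23 c (by omega) (by omega)
  omega

end Cfsg.Agent.Lib.Helper28.V2.SuzMA
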