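import Cfsg.Agent.Lib.Helper28.Mult.SuzMAData

set_option autoImplicit false
set_option maxRecDepth 100000

namespace Cfsg.Agent.Lib.Helper28.V2.SuzMA

open Cfsg.Agent.Lib.Helper28

theorem chk_24 : allRange D.checkLabel 12210 392 = true := by decide +kernel
theorem chk_25 : allRange D.checkLabel 12602 415 = true := by decide +kernel
theorem chk_26 : allRange D.checkLabel 13017 323 = true := by decide +kernel
theorem chk_27 : allRange D.checkLabel 13340 367 = true := by decide +kernel
theorem chk_28 : allRange D.checkLabel 13707 429 = true := by decide +kernel
theorem chk_29 : allRange D.checkLabel 14136 392 = true := by decide +kernel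
theorem chk_30 : allRange D.checkLabel 14528 423 = true := by decide +kernel
theorem chk_31 : allRange D.checkLabel 14951 495 = true := by decide +kernel
theorem chk_32 : allRange D.checkLabel 15446 478 = true := by decide +kernel
theorem chk_33 : allRange D.checkLabel 15924 381 = true := by decide +kernel
theorem chk_34 : allRange D.checkLabel 16305 31 = true := by decide +kernel
theorem chkF_2 : ∀ c, 12210 ≤ c → c < 16336 → D.checkLabel c = true := by
  intro c h1 h2
  by_cases h24 : c < 12602
  · exact allRange_iff.mp chk_24 c (by omega) (by omega)
  by_cases h25 : c < 13017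
  · exact allRange_iff.mp chk_25 c (by omega) (by omega)
  by_cases h26 : c < 13340
  · exact allRange_iff.mp chk_26 c (by omega) (by omega)
  by_cases h27 : c < 13707
  · exact allRange_iff.mp chk_27 c (by omega) (by omega)
  by_cases h28 : c < 14136
  · exact allRange_iff.mp chk_28 c (by omega) (by omega)
  by_cases h29 : c < 14528
  · exact allRange_iff.mp chk_29 c (by omega) (by omega)
  by_cases h30 : c < 14951
  · exact allRange_iff.mp chk_30 c (by omega) (by omega)
  by_cases h31 : c < 15446
  · exact allRange_iff.mp chk_31 c (by omega) (by omega)
  by_cases h32 : c < 15924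
  · exact allRange_iff.mp chk_32 c (by omega) (by omega)
  by_cases h33 : c < 16305
  · exact allRange_iff.mp chk_33 c (by omega) (by omega)
  by_cases h34 : c < 16336
  · exact allRange_iff.mp chk_34 c (by omega) (by omega)
  omega

end Cfsg.Agent.Lib.Helper28.V2.SuzMA
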