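import Cfsg.Agent.Lib.Helper28.Mult.SuzMBData

set_option autoImplicit false
set_option maxRecDepth 100000

namespace Cfsg.Agent.Lib.Helper28.V2.SuzMB

open Cfsg.Agent.Lib.Helper28

theorem chk_0 : allRange D.checkLabel 0 773 = true := by decide +kernel
theorem chk_1 : allRange D.checkLabel 773 906 = true := by decide +kernel
theorem chk_2 : allRange D.checkLabel 1679 586 = true := by decide +kernel
theorem chkF_0 : ∀ c, 0 ≤ c → c < 2265 → D.checkLabel c = true := by
  intro c h1 h2
  by_cases h0 : c < 773
  · exact allRange_iff.mp chk_0 c (by omega) (by omega)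
  by_cases h1 : c < 1679
  · exact allRange_iff.mp chk_1 c (by omega) (by omega)
  by_cases h2 : c < 2265
  · exact allRange_iff.mp chk_2 c (by omega) (by omega)
  omega

end Cfsg.Agent.Lib.Helper28.V2.SuzMB
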