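import Cfsg.Agent.Lib.Helper28.Mult.SuzMCData

set_option autoImplicit false
set_option maxRecDepth 100000

namespace Cfsg.Agent.Lib.Helper28.V2.SuzMC

open Cfsg.Agent.Lib.Helper28

theorem chk_0 : allRange D.checkLabel 0 127 = true := by decide +kernel
theorem chk_1 : allRange D.checkLabel 127 136 = true := by decide +kernel
theorem chk_2 : allRange D.checkLabel 263 91 = true := by decide +kernel
theorem chk_3 : allRange D.checkLabel 354 114 = true := by decide +kernel
theorem chk_4 : allRange D.checkLabel 468 117 = true := by decide +kernel
theorem chk_5 : allRange D.checkLabel 585 108 = true := by decide +kernel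
theorem chk_6 : allRange D.checkLabel 693 193 = true := by decide +kernel
theorem chk_7 : allRange D.checkLabel 886 146 = true := by decide +kernel
theorem chk_8 : allRange D.checkLabel 1032 137 = true := by decide +kernel
theorem chk_9 : allRange D.checkLabel 1169 134 = true := by decide +kernel
theorem chk_10 : allRange D.checkLabel 1303 249 = true := by decide +kernel
theorem chk_11 : allRange D.checkLabel 1552 199 = true := by decide +kernel
theorem chkF_0 : ∀ c, 0 ≤ c → c < 1751 → D.checkLabel c = true := by
  intro c h1 h2
  by_cases h0 : c < 127
  · exact allRange_iff.mp chk_0 c (by omega) (by omega)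
  by_cases h1 : c < 263
  · exact allRange_iff.mp chk_1 c (by omega) (by omega)
  by_cases h2 : c < 354
  · exact allRange_iff.mp chk_2 c (by omega) (by omega)
  by_cases h3 : c < 468
  · exact allRange_iff.mp chk_3 c (by omega) (by omega)
  by_cases h4 : c < 585
  · exact allRange_iff.mp chk_4 c (by omega) (by omega)
  by_cases h5 : c < 693
  · exact allRange_iff.mp chk_5 c (by omega) (by omega)
  by_cases h6 : c < 886
  · exact allRange_iff.mp chk_6 c (by omega) (by omega)
  by_cases h7 : c < 1032
  · exact allRange_iff.mp chk_7 c (by omega) (by omega)
  by_cases h8 : c < 1169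
  · exact allRange_iff.mp chk_8 c (by omega) (by omega)
  by_cases h9 : c < 1303
  · exact allRange_iff.mp chk_9 c (by omega) (by omega)
  by_cases h10 : c < 1552
  · exact allRange_iff.mp chk_10 c (by omega) (by omega)
  by_cases h11 : c < 1751
  · exact allRange_iff.mp chk_11 c (by omega) (by omega)
  omega

end Cfsg.Agent.Lib.Helper28.V2.SuzMC
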