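import Cfsg.Agent.Lib.Helper28.Mult.SuzMCData

set_option autoImplicit false
set_option maxRecDepth 100000

namespace Cfsg.Agent.Lib.Helper28.V2.SuzMC

open Cfsg.Agent.Lib.Helper28

theorem chk_132 : allRange D.checkLabel 43655 551 = true := by decide +kernel
theorem chk_133 : allRange D.checkLabel 44206 413 = true := by decide +kernel
theorem chk_134 : allRange D.checkLabel 44619 250 = true := by decide +kernel
theorem chk_135 : allRange D.checkLabel 44869 290 = true := by decide +kernel
theorem chk_136 : allRange D.checkLabel 45159 344 = true := by decide +kernel
theorem chk_137 : allRange D.checkLabel 45503 428 = true := by decide +kernel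
theorem chk_138 : allRange D.checkLabel 45931 259 = true := by decide +kernel
theorem chk_139 : allRange D.checkLabel 46190 437 = true := by decide +kernel
theorem chk_140 : allRange D.checkLabel 46627 280 = true := by decide +kernel
theorem chk_141 : allRange D.checkLabel 46907 298 = true := by decide +kernel
theorem chk_142 : allRange D.checkLabel 47205 330 = true := by decide +kernel
theorem chk_143 : allRange D.checkLabel 47535 451 = true := by decide +kernel
theorem chkF_11 : ∀ c, 43655 ≤ c → c < 47986 → D.checkLabel c = true := by
  intro c h1 h2
  by_cases h132 : c < 44206
  · exact allRange_iff.mp chk_132 c (by omega) (by omega)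
  by_cases h133 : c < 44619
  · exact allRange_iff.mp chk_133 c (by omega) (by omega)
  by_cases h134 : c < 44869
  · exact allRange_iff.mp chk_134 c (by omega) (by omega)
  by_cases h135 : c < 45159
  · exact allRange_iff.mp chk_135 c (by omega) (by omega)
  by_cases h136 : c < 45503
  · exact allRange_iff.mp chk_136 c (by omega) (by omega)
  by_cases h137 : c < 45931
  · exact allRange_iff.mp chk_137 c (by omega) (by omega)
  by_cases h138 : c < 46190
  · exact allRange_iff.mp chk_138 c (by omega) (by omega)
  by_cases h139 : c < 46627
  · exact allRange_iff.mp chk_139 c (by omega) (by omega)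
  by_cases h140 : c < 46907
  · exact allRange_iff.mp chk_140 c (by omega) (by omega)
  by_cases h141 : c < 47205
  · exact allRange_iff.mp chk_141 c (by omega) (by omega)
  by_cases h142 : c < 47535
  · exact allRange_iff.mp chk_142 c (by omega) (by omega)
  by_cases h143 : c < 47986
  · exact allRange_iff.mp chk_143 c (by omega) (by omega)
  omega

end Cfsg.Agent.Lib.Helper28.V2.SuzMC
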