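import Cfsg.Agent.Lib.Helper28.Mult.SuzMCData

set_option autoImplicit false
set_option maxRecDepth 100000

namespace Cfsg.Agent.Lib.Helper28.V2.SuzMC

open Cfsg.Agent.Lib.Helper28

theorem chk_264 : allRange D.checkLabel 95715 364 = true := by decide +kernel
theorem chk_265 : allRange D.checkLabel 96079 391 = true := by decide +kernel
theorem chk_266 : allRange D.checkLabel 96470 337 = true := by decide +kernel
theorem chk_267 : allRange D.checkLabel 96807 486 = true := by decide +kernel
theorem chk_268 : allRange D.checkLabel 97293 560 = true := by decide +kernel
theorem chk_269 : allRange D.checkLabel 97853 457 = true := by decide +kernel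
theorem chk_270 : allRange D.checkLabel 98310 325 = true := by decide +kernel
theorem chk_271 : allRange D.checkLabel 98635 577 = true := by decide +kernel
theorem chk_272 : allRange D.checkLabel 99212 625 = true := by decide +kernel
theorem chk_273 : allRange D.checkLabel 99837 427 = true := by decide +kernel
theorem chk_274 : allRange D.checkLabel 100264 557 = true := by decide +kernel
theorem chk_275 : allRange D.checkLabel 100821 523 = true := by decide +kernel
theorem chkF_22 : ∀ c, 95715 ≤ c → c < 101344 → D.checkLabel c = true := by
  intro c h1 h2
  by_cases h264 : c < 96079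
  · exact allRange_iff.mp chk_264 c (by omega) (by omega)
  by_cases h265 : c < 96470
  · exact allRange_iff.mp chk_265 c (by omega) (by omega)
  by_cases h266 : c < 96807
  · exact allRange_iff.mp chk_266 c (by omega) (by omega)
  by_cases h267 : c < 97293
  · exact allRange_iff.mp chk_267 c (by omega) (by omega)
  by_cases h268 : c < 97853
  · exact allRange_iff.mp chk_268 c (by omega) (by omega)
  by_cases h269 : c < 98310
  · exact allRange_iff.mp chk_269 c (by omega) (by omega)
  by_cases h270 : c < 98635
  · exact allRange_iff.mp chk_270 c (by omega) (by omega)
  by_cases h271 : c < 99212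
  · exact allRange_iff.mp chk_271 c (by omega) (by omega)
  by_cases h272 : c < 99837
  · exact allRange_iff.mp chk_272 c (by omega) (by omega)
  by_cases h273 : c < 100264
  · exact allRange_iff.mp chk_273 c (by omega) (by omega)
  by_cases h274 : c < 100821
  · exact allRange_iff.mp chk_274 c (by omega) (by omega)
  by_cases h275 : c < 101344
  · exact allRange_iff.mp chk_275 c (by omega) (by omega)
  omega

end Cfsg.Agent.Lib.Helper28.V2.SuzMC
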